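import Cfsg.Agent.FGS2.SpSix.Checks
import Cfsg.Agent.Forms.SympMatrix
import Cfsg.Agent.Forms.SympBridge
import Cfsg.Agent.S0245

/-! The symplectic group of dimension six over two elements as a group of words in transvections. -/

set_option autoImplicit false
set_option maxRecDepth 100000

namespace Cfsg.Agent.FGS2.SpSix

open Matrix

/-- The group. -/
abbrev Q : Type := Matrix.symplecticGroup (Fin 3) (ZMod 2)

/-- Six bits as a vector. -/
def vec (x : ℕ) : Fin 3 ⊕ Fin 3 → ZMod 2 :=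
  Sum.elim (fun i => if x.testBit i.val then 1 else 0) (fun i => if x.testBit (i.val + 3) then 1 else 0)

/-- A vector as six bits. -/
def toN (y : Fin 3 ⊕ Fin 3 → ZMod 2) : ℕ :=
  (y (Sum.inl 0)).val + 2 * (y (Sum.inl 1)).val + 4 * (y (Sum.inl 2)).val + 8 * (y (Sum.inr 0)).val +
    16 * (y (Sum.inr 1)).val + 32 * (y (Sum.inr 2)).val

theorem toN_spec : ∀ y : Fin 3 ⊕ Fin 3 → ZMod 2, toN y < 64 ∧ vec (toN y) = y := by decide +kernel

theorem toN_vec : ∀ x < 64, toN (vec x) = x := by decide +kernel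

theorem tf_spec : ∀ v < 64, ∀ x < 64,
    tf v x < 64 ∧ vec (tf v x) = vec x + Cfsg.sympForm 3 (ZMod 2) (vec x) (vec v) • vec v := by decide +kernel

/-- A transvection. -/
noncomputable def tv (v : ℕ) : Q :=
  (Forms.spEquiv 3 (ZMod 2)).symm (Forms.symTransv (Forms.sympB 3 (ZMod 2)) Forms.sympB_isAlt (vec v) 1)

theorem tv_apply {v x : ℕ} (hv : v < 64) (hx : x < 64) :
    (tv v : Matrix (Fin 3 ⊕ Fin 3) (Fin 3 ⊕ Fin 3) (ZMod 2)) *ᵥ vec x = vec (tf v x) := by
  rw [tv, Forms.spEquiv_symm_apply, Forms.symTransv_apply, Forms.sympB_apply, one_mul, (tf_spec v hv x hx).2]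

/-- A word in transvections. -/
noncomputable def tw (w : List ℕ) : Q := (w.map tv).prod

theorem tw_append (u w : List ℕ) : tw (u ++ w) = tw u * tw w := by
  rw [tw, List.map_append, List.prod_append, tw, tw]

theorem tw_nil : tw [] = 1 := rfl

theorem tw_single (v : ℕ) : tw [v] = tv v := by rw [tw, List.map_singleton, List.prod_singleton]

theorem tw_apply : ∀ w : List ℕ, (∀ v ∈ w, v < 64) → ∀ x < 64,
    wact w x < 64 ∧ (tw w : Matrix (Fin 3 ⊕ Fin 3) (Fin 3 ⊕ Fin 3) (ZMod 2)) *ᵥ vec x = vec (wact w x)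
  | [], _, x, hx => by
    refine ⟨hx, ?_⟩
    rw [tw_nil, OneMemClass.coe_one, Matrix.one_mulVec]
    rfl
  | v :: w, h, x, hx => by
    obtain ⟨h1, h2⟩ := tw_apply w (fun u hu => h u (List.mem_cons_of_mem _ hu)) x hx
    have hv := h v List.mem_cons_self
    refine ⟨(tf_spec v hv _ h1).1, ?_⟩
    rw [tw, List.map_cons, List.prod_cons, Submonoid.coe_mul, ← Matrix.mulVec_mulVec, ← tw, h2, tv_apply hv h1]
    rfl

/-- A word has letters below 64. -/
abbrev Ok (w : List ℕ) : Prop := ∀ v ∈ w, v < 64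

theorem Ok.append {u w : List ℕ} (hu : Ok u) (hw : Ok w) : Ok (u ++ w) := fun v hv =>
  (List.mem_append.1 hv).elim (hu v) (hw v)

theorem eqW_sound {u w : List ℕ} (hu : Ok u) (hw : Ok w) (h : eqW u w = true) : tw u = tw w := by
  refine Subtype.ext (Forms.matrix_ext_mulVec fun y => ?_)
  obtain ⟨hy, e⟩ := toN_spec y
  rw [← e, (tw_apply u hu _ hy).2, (tw_apply w hw _ hy).2]
  have := List.all_eq_true.1 h (toN y) (List.mem_range.2 hy)
  rw [beq_iff_eq] at this
  rw [this]

theorem finger_sound {u w : List ℕ} (hu : Ok u) (hw : Ok w) (h : tw u = tw w) : finger u = finger w := by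
  unfold finger
  refine congrArg List.sum (List.map_congr_left fun j hj => ?_)
  have hj' : (2 : ℕ) ^ j < 64 := by
    have := List.mem_range.1 hj
    calc (2 : ℕ) ^ j ≤ 2 ^ 5 := Nat.pow_le_pow_right (by norm_num) (by omega)
      _ < 64 := by norm_num
  obtain ⟨a, ea⟩ := tw_apply u hu _ hj'
  obtain ⟨b, eb⟩ := tw_apply w hw _ hj'
  rw [h] at ea
  rw [← toN_vec _ a, ← toN_vec _ b, ← ea, ← eb]

theorem card_Q : Nat.card Q = 1451520 := by
  rw [S0245.result (F := ZMod 2) (ZMod.card 2) 3]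
  decide +kernel

theorem tv_closure : Subgroup.closure {g : Q | ∃ v, 0 < v ∧ v < 64 ∧ g = tv v} = ⊤ := by
  rw [eq_top_iff, ← Forms.symplectic_transvection_closure, Subgroup.closure_le]
  rintro A ⟨w, c, hA⟩
  obtain ⟨hw, ew⟩ := toN_spec w
  have key : ∀ x, (A : Matrix (Fin 3 ⊕ Fin 3) (Fin 3 ⊕ Fin 3) (ZMod 2)) *ᵥ x =
      x + (c * Cfsg.sympForm 3 (ZMod 2) x w) • w := fun x => by rw [hA, Forms.sympTransvection_mulVec]
  have hone : c = 0 ∨ w = 0 → A = 1 := fun h => by
    refine Subtype.ext (Forms.matrix_ext_mulVec fun x => ?_)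
    rw [key, OneMemClass.coe_one, Matrix.one_mulVec]
    rcases h with h | h <;> simp [h]
  rcases (by decide : ∀ a : ZMod 2, a = 0 ∨ a = 1) c with hc | hc
  · rw [hone (Or.inl hc)]; exact one_mem _
  by_cases h0 : toN w = 0
  · have : w = 0 := by rw [← ew, h0]; decide +kernel
    rw [hone (Or.inr this)]; exact one_mem _
  refine Subgroup.subset_closure ⟨toN w, Nat.pos_of_ne_zero h0, hw, ?_⟩
  refine Subtype.ext (Forms.matrix_ext_mulVec fun x => ?_)
  rw [key, tv, Forms.spEquiv_symm_apply, Forms.symTransv_apply, Forms.sympB_apply, hc, ew]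

end Cfsg.Agent.FGS2.SpSix
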