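import Cfsg.Agent.FGS4.SchurSylow.Lifts
import Mathlib.Algebra.BigOperators.Fin
import Mathlib.Data.Nat.Bitwise

/-!
Central extensions of a 2-group given by nine involutions and the conjugates of earlier generators by later ones:
a collector records which unknown central factors occur, including the squares of lifts of involutions, and a
certificate shows that all of them can be removed.
-/

set_option autoImplicit false

namespace Cfsg.Agent.FGS2.SpSix.Collect

open Subgroup

universe u v w

/-- The tabulated word for two generators. -/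
def word (tab : List (List ℕ)) (a b : ℕ) : List ℕ := tab.getD (9 * a + b) []

/-- One rewriting step. -/
def step (tab : List (List ℕ)) (sqi : List ℕ) : List ℕ → Option (List ℕ × ℕ)
  | a :: b :: rest =>
    if a = b then some (rest, 2 ^ sqi.getD a 81)
    else if b < a then some (b :: (word tab a b ++ rest), 2 ^ (9 * a + b))
    else (step tab sqi (b :: rest)).map fun r => (a :: r.1, r.2)
  | _ => none

/-- Rewriting with a record of the factors. -/
def col (tab : List (List ℕ)) (sqi : List ℕ) : ℕ → List ℕ → List ℕ × ℕ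
  | 0, w => (w, 0)
  | f + 1, w =>
    match step tab sqi w with
    | none => (w, 0)
    | some r => ((col tab sqi f r.1).1, r.2 ^^^ (col tab sqi f r.1).2)

/-- The rewriting with enough steps. -/
def nf (tab : List (List ℕ)) (sqi : List ℕ) (w : List ℕ) : List ℕ × ℕ := col tab sqi 400 w

/-- All letters are below nine. -/
def small (w : List ℕ) : Bool := w.all fun a => decide (a < 9)

/-- The table has small letters, above the second index. -/
def tabOK (tab : List (List ℕ)) : Bool :=
  (List.range 9).all fun a => (List.range 9).all fun b => (word tab a b).all fun c => decide (c < 9) && decide (b < c)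

section

variable {Γ : Type u} [Group Γ] {K : Type v} [CommGroup K]

/-- The value of a word. -/
def ev (A : ℕ → Γ) (w : List ℕ) : Γ := (w.map A).prod

theorem ev_append (A : ℕ → Γ) (x y : List ℕ) : ev A (x ++ y) = ev A x * ev A y := by
  rw [ev, List.map_append, List.prod_append, ev, ev]

theorem ev_cons (A : ℕ → Γ) (a : ℕ) (y : List ℕ) : ev A (a :: y) = A a * ev A y := by
  rw [ev, List.map_cons, List.prod_cons, ev]

theorem ev_nil (A : ℕ → Γ) : ev A [] = 1 := rfl

theorem ev_single (A : ℕ → Γ) (a : ℕ) : ev A [a] = A a := by rw [ev_cons, ev_nil, mul_one]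

/-- The factor recorded by a mask. -/
def wm (W : ℕ → K) (m : ℕ) : K := ∏ i ∈ Finset.range 96, if m.testBit i then W i else 1

theorem wm_zero (W : ℕ → K) : wm W 0 = 1 :=
  Finset.prod_eq_one fun i _ => by simp

theorem wm_xor (W : ℕ → K) (hK : ∀ k : K, k * k = 1) (a b : ℕ) : wm W (a ^^^ b) = wm W a * wm W b := by
  rw [wm, wm, wm, ← Finset.prod_mul_distrib]
  refine Finset.prod_congr rfl fun i _ => ?_
  rw [Nat.testBit_xor]
  cases a.testBit i <;> cases b.testBit i <;> simp [hK]

theorem wm_pow (W : ℕ → K) {p : ℕ} (hp : p < 96) : wm W (2 ^ p) = W p := by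
  rw [wm, Finset.prod_eq_single p]
  · rw [if_pos (Nat.testBit_two_pow_self)]
  · intro i _ hi
    rw [if_neg (by rw [Nat.testBit_two_pow]; simpa using Ne.symm hi)]
  · intro h
    exact absurd (Finset.mem_range.2 hp) h

/-- The hypotheses on lifts of the generators. -/
structure Lifts (tab : List (List ℕ)) (sqi : List ℕ) (ι : K →* Γ) (A : ℕ → Γ) (W : ℕ → K) : Prop where
  central : ∀ (k : K) (y : Γ), y * ι k = ι k * y
  two : ∀ k : K, k * k = 1
  idx : ∀ a : ℕ, sqi.getD a 81 < 96
  sq : ∀ a < 9, A a * A a = ι (W (sqi.getD a 81))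
  rel : ∀ a b : ℕ, b < a → a < 9 → A a * A b = ι (W (9 * a + b)) * (A b * ev A (word tab a b))

variable {tab : List (List ℕ)} {sqi : List ℕ} {ι : K →* Γ} {A : ℕ → Γ} {W : ℕ → K}

theorem step_sound (L : Lifts tab sqi ι A W) (ht : tabOK tab = true) :
    ∀ w : List ℕ, small w = true → ∀ r, step tab sqi w = some r →
      small r.1 = true ∧ ev A w = ι (wm W r.2) * ev A r.1
  | [], _, r, h => by simp [step] at h
  | [a], _, r, h => by simp [step] at h
  | a :: b :: rest, hw, r, h => by
    simp only [small, List.all_cons, Bool.and_eq_true, decide_eq_true_eq] at hw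
    unfold step at h
    split_ifs at h with h1 h2
    · obtain rfl := Option.some.inj h
      subst h1
      refine ⟨hw.2.2, ?_⟩
      rw [wm_pow W (L.idx a), ev_cons, ev_cons, ← mul_assoc, L.sq a hw.1]
    · obtain rfl := Option.some.inj h
      refine ⟨?_, ?_⟩
      · have := List.all_eq_true.1 (List.all_eq_true.1 ht a (List.mem_range.2 hw.1)) b (List.mem_range.2 hw.2.1)
        simp only [List.all_eq_true, Bool.and_eq_true, decide_eq_true_eq] at this
        simp only [small, List.all_cons, List.all_append, Bool.and_eq_true, decide_eq_true_eq]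
        exact ⟨hw.2.1, List.all_eq_true.2 fun c hc => decide_eq_true (this c hc).1, hw.2.2⟩
      · rw [wm_pow W (by omega), ev_cons, ev_cons, ← mul_assoc, L.rel a b h2 hw.1, ev_cons, ev_append]
        simp only [mul_assoc]
    · obtain ⟨r', hr', rfl⟩ := Option.map_eq_some_iff.1 h
      obtain ⟨hs, he⟩ := step_sound L ht (b :: rest)
        (by simp only [small, List.all_cons, Bool.and_eq_true, decide_eq_true_eq]; exact hw.2) r' hr'
      refine ⟨by simp only [small, List.all_cons, Bool.and_eq_true, decide_eq_true_eq]; exact ⟨hw.1, hs⟩, ?_⟩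
      rw [ev_cons, he, ← mul_assoc, L.central, mul_assoc, ev_cons]

theorem col_sound (L : Lifts tab sqi ι A W) (ht : tabOK tab = true) : ∀ (f : ℕ) (w : List ℕ), small w = true →
    ev A w = ι (wm W (col tab sqi f w).2) * ev A (col tab sqi f w).1
  | 0, w, _ => by rw [col, wm_zero, map_one, one_mul]
  | f + 1, w, hw => by
    rw [col]
    split
    · rw [wm_zero, map_one, one_mul]
    · next r hr =>
      obtain ⟨hs, he⟩ := step_sound L ht w hw r hr
      rw [he, col_sound L ht f r.1 hs, wm_xor W L.two, map_mul, mul_assoc]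

theorem nf_sound (L : Lifts tab sqi ι A W) (ht : tabOK tab = true) (w : List ℕ) (hw : small w = true) :
    ev A w = ι (wm W (nf tab sqi w).2) * ev A (nf tab sqi w).1 :=
  col_sound L ht 400 w hw

theorem small_append {x y : List ℕ} (hx : small x = true) (hy : small y = true) : small (x ++ y) = true := by
  rw [small, List.all_append, Bool.and_eq_true]; exact ⟨hx, hy⟩

/-- The check of a square. -/
def sqOK' (tab : List (List ℕ)) (sqi : List ℕ) (w : List ℕ) : Bool := small w && (nf tab sqi (w ++ w)).1 == []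

theorem sq_sound (L : Lifts tab sqi ι A W) (ht : tabOK tab = true) {w : List ℕ} (h : sqOK' tab sqi w = true) :
    ev A w * ev A w = ι (wm W (nf tab sqi (w ++ w)).2) := by
  simp only [sqOK', Bool.and_eq_true, beq_iff_eq] at h
  rw [← ev_append, nf_sound L ht _ (small_append h.1 h.1), h.2, ev_nil, mul_one]

end

/-- A certificate that all factors can be removed. -/
structure Cert where
  tab : List (List ℕ)
  sqi : List ℕ
  sqs : List (List ℕ × ℕ)
  zero : ℕ
  shift : List ℕ
  sel : List ℕ
  selSq : List ℕ

/-- The masks known to give the trivial factor. -/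
def Cert.eqs (C : Cert) : List ℕ :=
  (2 ^ (81 + C.zero)) :: C.sqs.map (fun q => (nf C.tab C.sqi (q.1 ++ q.1)).2 ^^^ 2 ^ (81 + q.2))

/-- The mask to be removed for one pair. -/
def Cert.target (C : Cert) (a b : ℕ) : ℕ :=
  2 ^ (9 * a + b) ^^^ C.shift.getD a 0 ^^^ (word C.tab a b).foldr (fun c s => C.shift.getD c 0 ^^^ s) 0

/-- A selected combination. -/
def Cert.comb (C : Cert) (sel : ℕ) : ℕ :=
  (List.range C.eqs.length).foldr (fun k s => (if sel.testBit k then C.eqs.getD k 0 else 0) ^^^ s) 0

/-- The check of a certificate. -/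
def Cert.ok (C : Cert) : Bool :=
  tabOK C.tab && C.sqs.all (fun q => sqOK' C.tab C.sqi q.1 && decide (q.2 < 4)) &&
    decide (C.zero < 4) && C.sqi.all (fun i => decide (81 ≤ i ∧ i < 85)) &&
    (List.range 9).all (fun a => C.comb (C.selSq.getD a 0) == 2 ^ C.sqi.getD a 81) &&
    (List.range 9).all fun a => (List.range 9).all fun b =>
      !(decide (b < a)) || C.comb (C.sel.getD (9 * a + b) 0) == C.target a b

/-- The set of generators from a given index on. -/
def tail {G : Type w} (B : ℕ → G) (l : ℕ) : Set G := {x | ∃ j, l ≤ j ∧ j < 9 ∧ x = B j}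

theorem no_kernel {Γ : Type u} [Group Γ] [Finite Γ] {Q : Type v} [Group Q] {σ : Γ →* Q}
    (hσ : Cfsg.IsStemExtension σ) (hker : ∀ z ∈ σ.ker, z * z = 1) (C : Cert) (hC : C.ok = true)
    (e : ℕ → Q) (hrel : ∀ a b : ℕ, b < a → a < 9 → e a * e b = e b * ev e (word C.tab a b))
    (cls : ℕ → Q) (hcls : ∀ c < 4, cls c * cls c = 1)
    (hzero : ∀ X : Γ, σ X = cls C.zero → X * X = 1)
    (hconj : ∀ q ∈ C.sqs, ∃ k : Q, k * cls q.2 * k⁻¹ = ev e q.1)
    (hgen : ∀ a < 9, ∃ k : Q, k * cls (C.sqi.getD a 81 - 81) * k⁻¹ = e a)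
    (S : Sylow 2 Q) (hS : (S : Subgroup Q) = closure (tail e 0)) (hcard : Nat.card (S : Subgroup Q) = 512)
    {z : Γ} (hz : z ∈ σ.ker) (hzo : orderOf z = 2) : False := by
  simp only [Cert.ok, Bool.and_eq_true] at hC
  obtain ⟨⟨⟨⟨⟨ht, hsqs⟩, hz4⟩, hsqi⟩, hselsq⟩, hsel⟩ := hC
  have hidx : ∀ a : ℕ, 81 ≤ C.sqi.getD a 81 ∧ C.sqi.getD a 81 < 85 := by
    intro a
    by_cases ha : a < C.sqi.length
    · rw [List.getD_eq_getElem _ _ ha]
      simpa using List.all_eq_true.1 hsqi _ (List.getElem_mem ha)
    · rw [List.getD_eq_default _ _ (not_lt.1 ha)]; norm_num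
  have hc : ∀ w ∈ σ.ker, ∀ y : Γ, y * w = w * y := fun w hw => mem_center_iff.1 (hσ.2.1 hw)
  letI : CommGroup σ.ker :=
    { (inferInstance : Group σ.ker) with mul_comm := fun x y => Subtype.ext (hc _ y.2 x) }
  choose A hA using fun i => hσ.1 (e i)
  choose U hU using fun c => hσ.1 (cls c)
  have hev : ∀ w, σ (ev A w) = ev e w := by
    intro w
    rw [ev, map_list_prod, List.map_map, ev]
    exact congrArg List.prod (List.map_congr_left fun a _ => hA a)
  let ι : σ.ker →* Γ := σ.ker.subtype
  have hW : ∀ i : ℕ, ∃ k : σ.ker,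
      ((i < 81 ∧ i % 9 < i / 9) → A (i / 9) * A (i % 9) = ι k * (A (i % 9) * ev A (word C.tab (i / 9) (i % 9)))) ∧
      ((81 ≤ i ∧ i < 85) → ι k = U (i - 81) * U (i - 81)) := by
    intro i
    by_cases hi : i < 81 ∧ i % 9 < i / 9
    · refine ⟨⟨A (i / 9) * A (i % 9) * (A (i % 9) * ev A (word C.tab (i / 9) (i % 9)))⁻¹, ?_⟩, fun _ => ?_,
        fun h => absurd hi.1 (not_lt.2 h.1)⟩
      · rw [MonoidHom.mem_ker, map_mul, map_inv, map_mul, map_mul, hev, hA, hA, hrel _ _ hi.2 (by omega), mul_inv_cancel]
      · exact (inv_mul_cancel_right _ _).symm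
    · by_cases hj : 81 ≤ i ∧ i < 85
      · exact ⟨⟨U (i - 81) * U (i - 81), by rw [MonoidHom.mem_ker, map_mul, hU, hcls _ (by omega)]⟩,
          fun h => absurd h hi, fun _ => rfl⟩
      · exact ⟨1, fun h => absurd h hi, fun h => absurd h hj⟩
  choose W hWp hWc using hW
  have const : ∀ c < 4, ∀ q : Q, (∃ k, k * cls c * k⁻¹ = q) → ∀ X : Γ, σ X = q → X * X = ι (W (81 + c)) := by
    intro c hc4 q hq X hX
    rw [hWc (81 + c) ⟨by omega, by omega⟩, show 81 + c - 81 = c by omega]
    exact FGS4.SchurSylow.sq_eq_of_isConj hσ hker (hcls c hc4) hq (hU c) hX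
  have L : Lifts C.tab C.sqi ι A W :=
    { central := fun k y => hc _ k.2 y
      two := fun k => Subtype.ext (hker _ k.2)
      idx := fun a => lt_trans (hidx a).2 (by norm_num)
      sq := fun a ha => by
        have h := const (C.sqi.getD a 81 - 81) (by have := hidx a; omega) (e a) (hgen a ha) (A a) (hA a)
        rwa [show 81 + (C.sqi.getD a 81 - 81) = C.sqi.getD a 81 by have := hidx a; omega] at h
      rel := fun a b hb ha => by
        have h := hWp (9 * a + b)
        rw [show (9 * a + b) / 9 = a by omega, show (9 * a + b) % 9 = b by omega] at h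
        exact h ⟨by omega, hb⟩ }
  have hι : Function.Injective ι := Subtype.val_injective
  have hz4' : C.zero < 4 := of_decide_eq_true hz4
  have one : ∀ m ∈ C.eqs, wm W m = 1 := by
    intro m hm
    simp only [Cert.eqs, List.mem_cons, List.mem_map] at hm
    rcases hm with rfl | ⟨q, hq, rfl⟩
    · apply hι
      rw [wm_pow W (by omega), map_one, hWc (81 + C.zero) ⟨by omega, by omega⟩, show 81 + C.zero - 81 = C.zero by omega]
      exact hzero _ (hU _)
    · have h := List.all_eq_true.1 hsqs q hq
      rw [Bool.and_eq_true, decide_eq_true_eq] at h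
      have e1 := sq_sound L ht h.1
      rw [const q.2 h.2 _ (hconj q hq) _ (hev q.1)] at e1
      rw [wm_xor W L.two, wm_pow W (by omega), ← hι e1]
      exact L.two _
  have hsub' : ∀ sel : ℕ, wm W (C.comb sel) = 1 := by
    intro sel
    rw [Cert.comb]
    have hlt : ∀ k ∈ List.range C.eqs.length, k < C.eqs.length := fun k hk => List.mem_range.1 hk
    generalize List.range C.eqs.length = l at hlt ⊢
    induction l with
    | nil => exact wm_zero W
    | cons k l ih =>
      rw [List.foldr_cons, wm_xor W L.two, ih fun x hx => hlt x (List.mem_cons_of_mem _ hx), mul_one]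
      split_ifs
      · rw [List.getD_eq_getElem _ _ (hlt k List.mem_cons_self)]; exact one _ (List.getElem_mem _)
      · exact wm_zero W
  have hcomb : ∀ a b, b < a → a < 9 → wm W (C.target a b) = 1 := by
    intro a b hb ha
    have h := List.all_eq_true.1 (List.all_eq_true.1 hsel a (List.mem_range.2 ha)) b
      (List.mem_range.2 (hb.trans ha))
    simp only [decide_eq_true hb, Bool.not_true, Bool.false_or, beq_iff_eq] at h
    rw [← h]
    exact hsub' _
  have hsq : ∀ a < 9, A a * A a = 1 := by
    intro a ha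
    have h := List.all_eq_true.1 hselsq a (List.mem_range.2 ha)
    rw [beq_iff_eq] at h
    rw [L.sq a ha, ← wm_pow W (L.idx a), ← h, hsub', map_one]
  -- corrected lifts
  set B : ℕ → Γ := fun l => ι (wm W (C.shift.getD l 0)) * A l with hB
  have hBev : ∀ w : List ℕ,
      ev B w = ι (wm W (w.foldr (fun c s => C.shift.getD c 0 ^^^ s) 0)) * ev A w := by
    intro w
    induction w with
    | nil => rw [ev_nil, ev_nil, List.foldr_nil, wm_zero, map_one, mul_one]
    | cons c w ih =>
      rw [ev_cons, ev_cons, List.foldr_cons, ih, wm_xor W L.two, map_mul]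
      show ι _ * A c * (ι _ * ev A w) = _
      rw [mul_assoc, ← mul_assoc (A c), L.central, ← mul_assoc, ← mul_assoc, ← mul_assoc]
  have hBsq : ∀ a < 9, B a * B a = 1 := by
    intro a ha
    show ι _ * A a * (ι _ * A a) = 1
    rw [mul_assoc, ← mul_assoc (A a), L.central, mul_assoc, hsq a ha, mul_one, ← map_mul, L.two, map_one]
  have hBrel : ∀ a b, b < a → a < 9 → B a * B b = B b * ev B (word C.tab a b) := by
    intro a b hb ha
    rw [hBev]
    show ι _ * A a * (ι _ * A b) = ι _ * A b * (ι _ * ev A _)
    set za := wm W (C.shift.getD a 0)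
    set zb := wm W (C.shift.getD b 0)
    set zw := wm W ((word C.tab a b).foldr (fun c s => C.shift.getD c 0 ^^^ s) 0)
    have h := hcomb a b hb ha
    rw [Cert.target, wm_xor W L.two, wm_xor W L.two, wm_pow W (by omega)] at h
    calc ι za * A a * (ι zb * A b) = ι za * ι zb * (A a * A b) := by
          rw [mul_assoc, ← mul_assoc (A a), L.central]; simp only [mul_assoc]
      _ = ι (za * zb * W (9 * a + b)) * (A b * ev A (word C.tab a b)) := by
          rw [L.rel a b hb ha, map_mul, map_mul]; simp only [mul_assoc]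
      _ = ι (zb * zw) * (A b * ev A (word C.tab a b)) := by
          congr 2
          calc za * zb * W (9 * a + b) = za * zb * W (9 * a + b) * (zw * zw) := by rw [L.two, mul_one]
            _ = zb * zw * (W (9 * a + b) * za * zw) := by ac_rfl
            _ = _ := by rw [h, mul_one]
      _ = _ := by
          rw [map_mul, mul_assoc, mul_assoc, ← mul_assoc (A b), L.central, mul_assoc]
  have hsub : ∀ l, l < 9 → tail B l = insert (B l) (tail B (l + 1)) := by
    intro l hl
    ext x
    simp only [tail, Set.mem_insert_iff, Set.mem_ofPred_eq]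
    constructor
    · rintro ⟨j, hj, hj9, rfl⟩
      rcases eq_or_lt_of_le hj with rfl | h
      · exact Or.inl rfl
      · exact Or.inr ⟨j, h, hj9, rfl⟩
    · rintro (rfl | ⟨j, hj, hj9, rfl⟩)
      · exact ⟨l, le_rfl, hl, rfl⟩
      · exact ⟨j, by omega, hj9, rfl⟩
  have hle : ∀ k, k ≤ 9 → Nat.card (closure (tail B (9 - k))) ≤ 2 ^ k := by
    intro k
    induction k with
    | zero =>
      intro _
      have : tail B (9 - 0) = (∅ : Set Γ) := Set.eq_empty_iff_forall_notMem.2 fun x ⟨j, a, b, _⟩ => by omega
      rw [this, Subgroup.closure_empty, Subgroup.card_bot, pow_zero]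
    | succ k ih =>
      intro hk
      rw [hsub (9 - (k + 1)) (by omega), show 9 - (k + 1) + 1 = 9 - k by omega, pow_succ']
      refine le_trans (FGS4.SchurSylow.card_closure_insert_le (hBsq _ (by omega)) ?_)
        (Nat.mul_le_mul_left 2 (ih (by omega)))
      rintro x ⟨j, hj, hj9, rfl⟩
      rw [mul_assoc, hBrel j (9 - (k + 1)) (by omega) hj9, ← mul_assoc, hBsq _ (by omega), one_mul]
      refine list_prod_mem fun y hy => ?_
      obtain ⟨c, hcm, rfl⟩ := List.mem_map.1 hy
      have := List.all_eq_true.1 (List.all_eq_true.1 ht j (List.mem_range.2 hj9)) (9 - (k + 1))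
        (List.mem_range.2 (by omega))
      simp only [List.all_eq_true, Bool.and_eq_true, decide_eq_true_eq] at this
      exact subset_closure ⟨c, by have := (this c hcm).2; omega, (this c hcm).1, rfl⟩
  set T := closure (tail B 0) with hT
  have hT512 : Nat.card T ≤ 512 := by
    have := hle 9 le_rfl
    simpa [hT] using this
  have himg : T.map σ = (S : Subgroup Q) := by
    rw [hS, hT, MonoidHom.map_closure]
    congr 1
    ext x
    simp only [tail, Set.mem_image, Set.mem_ofPred_eq]
    constructor
    · rintro ⟨_, ⟨j, h0, hj, rfl⟩, rfl⟩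
      exact ⟨j, h0, hj, by rw [hB, map_mul, show σ (ι (wm W (C.shift.getD j 0))) = 1 from MonoidHom.mem_ker.1 (wm W (C.shift.getD j 0)).2, one_mul, hA]⟩
    · rintro ⟨j, h0, hj, rfl⟩
      exact ⟨B j, ⟨j, h0, hj, rfl⟩, by rw [hB, map_mul, show σ (ι (wm W (C.shift.getD j 0))) = 1 from MonoidHom.mem_ker.1 (wm W (C.shift.getD j 0)).2, one_mul, hA]⟩
  have hbot : ∀ x ∈ T, x ∈ σ.ker → x = 1 := by
    intro x hx hxk
    let f : T →* Q := σ.comp T.subtype
    have hr : f.range = T.map σ := by rw [MonoidHom.range_comp, range_subtype]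
    have h1 := f.ker.card_mul_index
    rw [Subgroup.index_ker, hr, himg, hcard] at h1
    have hk : Nat.card f.ker = 1 := by
      have : 0 < Nat.card f.ker := Nat.card_pos
      by_contra hne
      have : 2 * 512 ≤ Nat.card f.ker * 512 := Nat.mul_le_mul_right _ (by omega)
      omega
    have hmem : (⟨x, hx⟩ : T) ∈ f.ker := hxk
    rw [Subgroup.card_eq_one.1 hk, mem_bot] at hmem
    exact congrArg Subtype.val hmem
  haveI : Fact (Nat.Prime 2) := ⟨Nat.prime_two⟩
  refine FGS4.SchurSylow.stem_false hσ S hz hzo fun t htk htm => ?_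
  have hle' : (S : Subgroup Q).comap σ ≤ T ⊔ σ.ker := by rw [← himg, Subgroup.comap_map_eq]
  have h1 := FGS4.SchurSylow.commutator_sup_center_le (K := T) hσ.2.1 (commutator_mono hle' hle' htm)
  exact hbot t (Subgroup.commutator_le_self T h1) htk

end Cfsg.Agent.FGS2.SpSix.Collect
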