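import Cfsg.Agent.FGS2.SpSix.Data
import Cfsg.Agent.FGS2.SpSix.Collect

/-! Checks for the double cover and the multiplier, on vectors and on permutations of 240 points. -/

set_option autoImplicit false
set_option maxRecDepth 100000

namespace Cfsg.Agent.FGS2.SpSix

/-- The symplectic form on six bits. -/
def bForm (x v : ℕ) : Bool := ((List.range 3).filter fun i =>
  (x.testBit i && v.testBit (i + 3)) != (x.testBit (i + 3) && v.testBit i)).length % 2 == 1

/-- A transvection on six bits. -/
def tf (v x : ℕ) : ℕ := if bForm x v then x ^^^ v else x

/-- The action of a word in transvections. -/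
def wact (w : List ℕ) (x : ℕ) : ℕ := w.foldr tf x

/-- Equality of two words as maps. -/
def eqW (u w : List ℕ) : Bool := (List.range 64).all fun x => wact u x == wact w x

/-- The word of a product of the Sylow generators. -/
def flat (w : List ℕ) : List ℕ := w.foldr (fun a s => spE.getD a [] ++ s) []

/-- The certificate. -/
def cert : Collect.Cert :=
  ⟨spTab, spSqIdx, List.zipWith (fun w c => (w, c.1)) spSqs spSqsWit, 1, spShift, spSel, spSelSq⟩

/-- An entry of a permutation code. -/
def get (c i : ℕ) : ℕ := (c >>> (8 * i)) &&& 255

/-- The code of a transvection lift. -/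
def pc (v : ℕ) : ℕ := spPerm.getD v 0

theorem cert_ok : cert.ok = true := by decide +kernel

theorem spE_rel : ((List.range 9).all fun a => (List.range 9).all fun b => !(decide (b < a)) ||
    eqW (spE.getD a [] ++ spE.getD b []) (spE.getD b [] ++ flat (Collect.word spTab a b))) = true := by decide +kernel

theorem reps_ok : ((List.range 4).all fun c => eqW (spReps.getD c [] ++ spReps.getD c []) []) = true := by
  decide +kernel

theorem sqs_ok : spSqs.length = spSqsWit.length ∧ ((List.range spSqs.length).all fun i =>
    eqW ((spSqsWit.getD i (0, [])).2 ++ spReps.getD (spSqsWit.getD i (0, [])).1 [])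
      (flat (spSqs.getD i []) ++ (spSqsWit.getD i (0, [])).2)) = true := by decide +kernel

theorem eWit_ok : ((List.range 9).all fun a => decide (spSqIdx.getD a 81 = 81 + (spEWit.getD a (0, [])).1) &&
    eqW ((spEWit.getD a (0, [])).2 ++ spReps.getD (spEWit.getD a (0, [])).1 [])
      (spE.getD a [] ++ (spEWit.getD a (0, [])).2)) = true := by decide +kernel

/-- The subgroup elements of the Sylow subgroup, by bits. -/
def bitsWord (n : ℕ) : List ℕ := flat ((List.range 9).filter fun i => n.testBit i)

/-- A fingerprint of a map. -/
def finger (w : List ℕ) : ℕ := ((List.range 6).map fun j => wact w (2 ^ j) * 64 ^ j).sum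

theorem sylow_distinct : ((List.range 512).map fun n => finger (bitsWord n)).Nodup := by decide +kernel

theorem four_ok :
    eqW (spFour.getD 2 [] ++ spReps.getD 1 []) (spFour.getD 0 [] ++ spFour.getD 2 []) = true ∧
    eqW (spFour.getD 3 [] ++ spReps.getD 1 []) (spFour.getD 1 [] ++ spFour.getD 3 []) = true ∧
    eqW (spFour.getD 4 [] ++ spReps.getD 1 []) (spFour.getD 0 [] ++ spFour.getD 1 [] ++ spFour.getD 4 []) = true := by
  decide +kernel

/-- The three elements of order three. -/
def uW (i : ℕ) : List ℕ := [2 ^ (i % 3), 2 ^ (i % 3 + 3)]

theorem three_ok : ((List.range 3).all fun i =>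
    eqW (uW i ++ uW i ++ uW i) [] && !(eqW (uW i) []) &&
    eqW (spT ++ uW i) (uW (i + 1) ++ spT) &&
    eqW ([2 ^ i] ++ uW i) (uW i ++ uW i ++ [2 ^ i]) &&
    (List.range 3).all fun j => decide (i = j) || (eqW ([2 ^ i] ++ uW j) (uW j ++ [2 ^ i]) &&
      eqW (uW i ++ uW j) (uW j ++ uW i))) = true ∧ eqW (spT ++ spT ++ spT) [] = true := by decide +kernel

/-- A product of powers of the three elements. -/
def uPow (n : ℕ) : List ℕ :=
  (List.replicate (n % 3) (uW 0)).flatten ++ (List.replicate (n / 3 % 3) (uW 1)).flatten ++
    (List.replicate (n / 9 % 3) (uW 2)).flatten ++ (List.replicate (n / 27 % 3) spT).flatten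

theorem three_distinct : ((List.range 81).map fun n => finger (uPow n)).Nodup := by decide +kernel

theorem tree_ok : (spTree.all fun p => decide (p.1 < 64) && decide (p.2.1 < 7) && decide (p.2.2 < 64) &&
      eqW [p.1, spGens.getD p.2.1 0] [spGens.getD p.2.1 0, p.2.2]) = true := by decide +kernel

theorem tree_mem : ((List.range 64).all fun v => decide (v = 0) || decide (v = spGens.getD 0 0) ||
      spTree.any fun p => p.1 == v) = true := by decide +kernel

theorem tree_order : ((List.range spTree.length).all fun i => decide ((spTree.getD i (0, 0, 0)).2.2 = spGens.getD 0 0) ||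
      (List.range i).any fun j => (spTree.getD j (0, 0, 0)).1 == (spTree.getD i (0, 0, 0)).2.2) = true := by
  decide +kernel

theorem gens_ok : spGens.length = 7 ∧ (spGens.all fun v => decide (0 < v) && decide (v < 64)) = true := by
  decide +kernel

theorem perm_range : ((List.range 64).all fun v => decide (v = 0) || (List.range 240).all fun i =>
    decide (get (pc v) i < 240) && get (pc v) (get (pc v) i) == get spNeg i) = true := by decide +kernel

theorem neg_range : ((List.range 240).all fun i => decide (get spNeg i < 240) && get spNeg (get spNeg i) == i &&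
    !(get spNeg i == i)) = true := by decide +kernel

theorem conj_ok : (spGens.all fun k => (List.range 64).all fun v => decide (v = 0) ||
    ((List.range 240).all (fun i => get (pc k) (get (pc v) i) == get (pc (tf k v)) (get (pc k) i)) ||
      (List.range 240).all (fun i => get (pc k) (get (pc v) i) == get (pc (tf k v)) (get spNeg (get (pc k) i))))) = true := by
  decide +kernel

theorem distinct_ok : ((List.range 64).all fun a => decide (a = 0) || (List.range a).all fun b => decide (b = 0) ||
    (!((List.range 240).all fun i => get (pc a) i == get (pc b) i) &&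
      !((List.range 240).all fun i => get (pc a) i == get spNeg (get (pc b) i)))) = true := by decide +kernel

/-- The action of a word in the generators on 240 points. -/
def gact (w : List ℕ) (i : ℕ) : ℕ := w.foldr (fun g x => get (pc (spGens.getD g 0)) x) i

theorem path_ok : spPath.length = 240 ∧ ((List.range 240).all fun i =>
    (spPath.getD i []).all (fun g => decide (g < 7)) && gact (spPath.getD i []) 0 == i) = true := by decide +kernel

theorem stab_ok : (spStab.all fun w => w.all (fun g => decide (g < 7)) && gact w 0 == 0) = true ∧
    ((List.range 240).all fun s => decide (s = 0) || decide (s = get spNeg 0) ||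
      spStab.any fun w => !(gact w s == s)) = true := by decide +kernel

theorem lag_ok : spLag.length = 7 ∧ (spLag.all fun v => decide (0 < v) && decide (v < 64)) = true ∧
    ((List.range 240).all (fun i => spLag.foldr (fun v x => get (pc v) x) i == i) ||
      (List.range 240).all (fun i => spLag.foldr (fun v x => get (pc v) x) i == get spNeg i)) = true := by
  decide +kernel

theorem xy_ok : 0 < spX ∧ spX < 64 ∧ 0 < spY ∧ spY < 64 ∧ eqW [spX, spY] [spY, spX] = true ∧
    ((List.range 240).any fun i => !(get (pc spX) (get (pc spY) i) == get (pc spY) (get (pc spX) i))) = true := by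
  decide +kernel

end Cfsg.Agent.FGS2.SpSix
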