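import Cfsg.Agent.FGS2.SpSix.Basic
import Cfsg.Prelude.Def_KGroupFacts

/-! The double cover as a group of permutations of 240 points. -/

set_option autoImplicit false
set_option maxRecDepth 100000

namespace Cfsg.Agent.FGS2.SpSix

open Matrix
open scoped commutatorElement

/-- The permutations of 240 points. -/
abbrev Pm : Type := Equiv.Perm (Fin 240)

/-- The map with a given code. -/
def ptMap (c : ℕ) (i : Fin 240) : Fin 240 := ⟨get c i.val % 240, Nat.mod_lt _ (by norm_num)⟩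

theorem neg_spec (i : Fin 240) : (ptMap spNeg i).val = get spNeg i.val ∧ ptMap spNeg (ptMap spNeg i) = i ∧ ptMap spNeg i ≠ i := by
  have h := List.all_eq_true.1 neg_range i.val (List.mem_range.2 i.2)
  simp only [Bool.and_eq_true, decide_eq_true_eq, beq_iff_eq, Bool.not_eq_true', beq_eq_false_iff_ne] at h
  have e : (ptMap spNeg i).val = get spNeg i.val := Nat.mod_eq_of_lt h.1.1
  refine ⟨e, Fin.ext ?_, fun hh => h.2 ?_⟩
  · show get spNeg (ptMap spNeg i).val % 240 = i.val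
    rw [e, h.1.2, Nat.mod_eq_of_lt i.2]
  · rw [← e, hh]

/-- The central permutation. -/
def nE : Pm := Function.Involutive.toPerm (ptMap spNeg) fun i => (neg_spec i).2.1

theorem nE_apply (i : Fin 240) : nE i = ptMap spNeg i := rfl

theorem nE_sq : nE * nE = 1 := Equiv.ext fun i => (neg_spec i).2.1

theorem nE_ne : nE ≠ 1 := fun h => (neg_spec ⟨0, by norm_num⟩).2.2 (Equiv.congr_fun h _)

theorem pc_spec {v : ℕ} (h0 : 0 < v) (hv : v < 64) (i : Fin 240) :
    (ptMap (pc v) i).val = get (pc v) i.val ∧ ptMap (pc v) (ptMap (pc v) i) = ptMap spNeg i := by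
  have h := List.all_eq_true.1 perm_range v (List.mem_range.2 hv)
  simp only [Bool.or_eq_true, decide_eq_true_eq, Nat.ne_of_gt h0, false_or, List.all_eq_true, List.mem_range,
    Bool.and_eq_true, beq_iff_eq] at h
  have e : (ptMap (pc v) i).val = get (pc v) i.val := Nat.mod_eq_of_lt (h i.val i.2).1
  refine ⟨e, Fin.ext ?_⟩
  show get (pc v) (ptMap (pc v) i).val % 240 = (ptMap spNeg i).val
  rw [e, (h i.val i.2).2, (neg_spec i).1, Nat.mod_eq_of_lt]
  rw [← (neg_spec i).1]; exact (ptMap spNeg i).2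

/-- The lift of a transvection. -/
noncomputable def xE (v : ℕ) : Pm :=
  if h : 0 < v ∧ v < 64 then
    { toFun := ptMap (pc v)
      invFun := fun i => ptMap spNeg (ptMap (pc v) i)
      left_inv := fun i => by
        show ptMap spNeg (ptMap (pc v) (ptMap (pc v) i)) = i
        rw [(pc_spec h.1 h.2 i).2, (neg_spec i).2.1]
      right_inv := fun i => by
        show ptMap (pc v) (ptMap spNeg (ptMap (pc v) i)) = i
        rw [← (pc_spec h.1 h.2 (ptMap (pc v) i)).2, (pc_spec h.1 h.2 (ptMap (pc v) (ptMap (pc v) i))).2,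
          (pc_spec h.1 h.2 i).2, (neg_spec i).2.1] }
  else 1

theorem xE_apply {v : ℕ} (h0 : 0 < v) (hv : v < 64) (i : Fin 240) : (xE v i).val = get (pc v) i.val := by
  rw [xE, dif_pos ⟨h0, hv⟩]
  exact (pc_spec h0 hv i).1

theorem xE_sq {v : ℕ} (h0 : 0 < v) (hv : v < 64) : xE v * xE v = nE := by
  refine Equiv.ext fun i => ?_
  rw [Equiv.Perm.mul_apply, xE, dif_pos ⟨h0, hv⟩]
  exact (pc_spec h0 hv i).2

theorem xE_neg {v : ℕ} (h0 : 0 < v) (hv : v < 64) : xE v * nE = nE * xE v := by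
  rw [← xE_sq h0 hv, mul_assoc]

theorem nE_get (i : Fin 240) : (nE i).val = get spNeg i.val := (neg_spec i).1

theorem gen_lt {i : ℕ} (hi : i < 7) : 0 < spGens.getD i 0 ∧ spGens.getD i 0 < 64 := by
  have hl : i < spGens.length := by rw [gens_ok.1]; exact hi
  rw [List.getD_eq_getElem _ _ hl]
  simpa using List.all_eq_true.1 gens_ok.2 _ (List.getElem_mem hl)

theorem tf_ne : ∀ k < 64, ∀ v < 64, v ≠ 0 → tf k v ≠ 0 := by decide +kernel

theorem gen_conj {i v : ℕ} (hi : i < 7) (h0 : 0 < v) (hv : v < 64) :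
    0 < tf (spGens.getD i 0) v ∧ tf (spGens.getD i 0) v < 64 ∧
    (xE (spGens.getD i 0) * xE v = xE (tf (spGens.getD i 0) v) * xE (spGens.getD i 0) ∨
      xE (spGens.getD i 0) * xE v = xE (tf (spGens.getD i 0) v) * (nE * xE (spGens.getD i 0))) := by
  set k := spGens.getD i 0 with hkd
  obtain ⟨hk0, hk⟩ := gen_lt hi
  have ht := (tf_spec k hk v hv).1
  have ht0 : 0 < tf k v := Nat.pos_of_ne_zero (tf_ne k hk v hv (Nat.ne_of_gt h0))
  have hmem : k ∈ spGens := by
    rw [hkd, List.getD_eq_getElem _ _ (by rw [gens_ok.1]; exact hi)]; exact List.getElem_mem _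
  have h := List.all_eq_true.1 (List.all_eq_true.1 conj_ok k hmem) v (List.mem_range.2 hv)
  simp only [Bool.or_eq_true, decide_eq_true_eq, Nat.ne_of_gt h0, false_or, List.all_eq_true, List.mem_range,
    beq_iff_eq] at h
  refine ⟨ht0, ht, h.imp (fun h => Equiv.ext fun j => Fin.ext ?_) (fun h => Equiv.ext fun j => Fin.ext ?_)⟩
  · rw [Equiv.Perm.mul_apply, Equiv.Perm.mul_apply, xE_apply hk0 hk, xE_apply h0 hv, xE_apply ht0 ht,
      xE_apply hk0 hk]
    exact h j.val j.2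
  · rw [Equiv.Perm.mul_apply, Equiv.Perm.mul_apply, Equiv.Perm.mul_apply, xE_apply hk0 hk, xE_apply h0 hv,
      xE_apply ht0 ht, nE_get, xE_apply hk0 hk]
    exact h j.val j.2

/-- Compatibility of a permutation with an element of the group. -/
def Rel (g : Pm) (q : Q) : Prop :=
  g * nE = nE * g ∧ ∀ v, 0 < v → v < 64 → ∃ u, 0 < u ∧ u < 64 ∧
    (q : Matrix (Fin 3 ⊕ Fin 3) (Fin 3 ⊕ Fin 3) (ZMod 2)) *ᵥ vec v = vec u ∧
    (g * xE v = xE u * g ∨ g * xE v = xE u * (nE * g))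

theorem Rel.one : Rel 1 1 := ⟨by rw [one_mul, mul_one], fun v h0 hv =>
  ⟨v, h0, hv, by rw [OneMemClass.coe_one, Matrix.one_mulVec], Or.inl (by rw [one_mul, mul_one])⟩⟩

theorem Rel.mul {g g' : Pm} {q q' : Q} (h : Rel g q) (h' : Rel g' q') : Rel (g * g') (q * q') := by
  refine ⟨by rw [mul_assoc, h'.1, ← mul_assoc, h.1, mul_assoc], fun v h0 hv => ?_⟩
  obtain ⟨u, u0, hu, eu, cu⟩ := h'.2 v h0 hv
  obtain ⟨t, t0, ht, et, ct⟩ := h.2 u u0 hu
  refine ⟨t, t0, ht, by rw [Submonoid.coe_mul, ← Matrix.mulVec_mulVec, eu, et], ?_⟩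
  have hn : ∀ x : Pm, nE * (nE * x) = x := fun x => by rw [← mul_assoc, nE_sq, one_mul]
  have hg : ∀ x : Pm, g * (nE * x) = nE * (g * x) := fun x => by rw [← mul_assoc, h.1, mul_assoc]
  rcases cu with cu | cu <;> rcases ct with ct | ct
  · left; rw [mul_assoc, cu, ← mul_assoc, ct, mul_assoc]
  · right; rw [mul_assoc, cu, ← mul_assoc, ct]; simp only [mul_assoc]
  · right; rw [mul_assoc, cu, ← mul_assoc, ct]; simp only [mul_assoc, hg]
  · left; rw [mul_assoc, cu, ← mul_assoc, ct]; simp only [mul_assoc, hg, hn]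

theorem Rel.gen {i : ℕ} (hi : i < 7) : Rel (xE (spGens.getD i 0)) (tv (spGens.getD i 0)) := by
  obtain ⟨k0, hk⟩ := gen_lt hi
  refine ⟨xE_neg k0 hk, fun v h0 hv => ?_⟩
  obtain ⟨u0, hu, c⟩ := gen_conj hi h0 hv
  exact ⟨_, u0, hu, tv_apply hk hv, c⟩

theorem xE_injective {a b : ℕ} (ha0 : 0 < a) (ha : a < 64) (hb0 : 0 < b) (hb : b < 64)
    (h : xE a = xE b ∨ xE a = nE * xE b) : a = b := by
  by_contra hne
  have main : ∀ a b : ℕ, b < a → a < 64 → 0 < b → (xE a = xE b ∨ xE a = nE * xE b) → False := by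
    intro a b hlt ha hb0 h
    have hd := List.all_eq_true.1 distinct_ok a (List.mem_range.2 ha)
    simp only [Bool.or_eq_true, decide_eq_true_eq, List.all_eq_true, List.mem_range] at hd
    have hd' := (hd.resolve_left (by omega)) b hlt
    simp only [Bool.or_eq_true, decide_eq_true_eq, Nat.ne_of_gt hb0, false_or, Bool.and_eq_true, Bool.not_eq_true',
      List.all_eq_false, List.mem_range, beq_iff_eq] at hd'
    obtain ⟨⟨i, hi, e1⟩, j, hj, e2⟩ := hd'
    rcases h with h | h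
    · refine e1 ?_
      rw [← xE_apply (hb0.trans hlt) ha ⟨i, hi⟩, ← xE_apply hb0 (hlt.trans ha) ⟨i, hi⟩, h]
    · refine e2 ?_
      rw [← xE_apply (hb0.trans hlt) ha ⟨j, hj⟩, ← xE_apply hb0 (hlt.trans ha) ⟨j, hj⟩, ← nE_get, h]
      rfl
  rcases lt_or_gt_of_ne hne with hlt | hlt
  · refine main b a hlt hb ha0 ?_
    rcases h with h | h
    · exact Or.inl h.symm
    · exact Or.inr (by rw [h, ← mul_assoc, nE_sq, one_mul])
  · exact main a b hlt ha hb0 h

theorem Rel.unique {g : Pm} {q q' : Q} (h : Rel g q) (h' : Rel g q') : q = q' := by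
  refine Subtype.ext (Forms.matrix_ext_mulVec fun y => ?_)
  obtain ⟨hy, e⟩ := toN_spec y
  rw [← e]
  rcases Nat.eq_zero_or_pos (toN y) with h0 | h0
  · rw [h0, show vec 0 = 0 by decide +kernel, Matrix.mulVec_zero, Matrix.mulVec_zero]
  obtain ⟨u, u0, hu, eu, cu⟩ := h.2 _ h0 hy
  obtain ⟨t, t0, ht, et, ct⟩ := h'.2 _ h0 hy
  rw [eu, et, show u = t from ?_]
  refine xE_injective u0 hu t0 ht ?_
  rcases cu with cu | cu <;> rcases ct with ct | ct <;> rw [cu] at ct
  · exact Or.inl (mul_right_cancel ct)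
  · exact Or.inr (by rw [← mul_assoc] at ct; rw [mul_right_cancel ct, xE_neg t0 ht])
  · refine Or.inr ?_
    rw [← mul_assoc, xE_neg u0 hu] at ct
    rw [← mul_right_cancel ct, ← mul_assoc, nE_sq, one_mul]
  · rw [← mul_assoc, ← mul_assoc] at ct
    exact Or.inl (mul_right_cancel (mul_right_cancel ct))

/-- The cover. -/
def Cov : Subgroup Pm := Subgroup.closure {g | ∃ i < 7, g = xE (spGens.getD i 0)}

theorem cov_rel {g : Pm} (hg : g ∈ Cov) : ∃ q, Rel g q := by
  have hg' : g ∈ Submonoid.closure {g : Pm | ∃ i < 7, g = xE (spGens.getD i 0)} := by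
    rw [← Subgroup.closure_toSubmonoid_of_finite]; exact hg
  induction hg' using Submonoid.closure_induction with
  | mem x hx => obtain ⟨i, hi, rfl⟩ := hx; exact ⟨_, Rel.gen hi⟩
  | one => exact ⟨1, Rel.one⟩
  | mul x y hx hy ix iy =>
    obtain ⟨q, hq⟩ := ix (by rw [Cov, ← Subgroup.mem_toSubmonoid, Subgroup.closure_toSubmonoid_of_finite]; exact hx)
    obtain ⟨q', hq'⟩ := iy (by rw [Cov, ← Subgroup.mem_toSubmonoid, Subgroup.closure_toSubmonoid_of_finite]; exact hy)
    exact ⟨_, hq.mul hq'⟩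

/-- The projection. -/
noncomputable def proj : Cov →* Q :=
  MonoidHom.mk' (fun g => (cov_rel g.2).choose) fun g g' =>
    (cov_rel (g * g').2).choose_spec.unique ((cov_rel g.2).choose_spec.mul (cov_rel g'.2).choose_spec)

theorem proj_eq {g : Cov} {q : Q} (h : Rel g.1 q) : proj g = q := (cov_rel g.2).choose_spec.unique h

theorem tree_target : ∀ p ∈ spTree, p.1 = tf (spGens.getD p.2.1 0) p.2.2 := by decide +kernel

theorem tree_pos : ∀ p ∈ spTree, 0 < p.1 := by decide +kernel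

theorem tree_spec {p : ℕ × ℕ × ℕ} (hp : p ∈ spTree) :
    p.1 < 64 ∧ p.2.1 < 7 ∧ p.2.2 < 64 ∧ tv p.1 = tv (spGens.getD p.2.1 0) * tv p.2.2 * (tv (spGens.getD p.2.1 0))⁻¹ := by
  have h := List.all_eq_true.1 tree_ok p hp
  simp only [Bool.and_eq_true, decide_eq_true_eq] at h
  obtain ⟨⟨⟨a, b⟩, c⟩, e⟩ := h
  refine ⟨a, b, c, ?_⟩
  have hg := (gen_lt b).2
  have := eqW_sound (u := [p.1, spGens.getD p.2.1 0]) (w := [spGens.getD p.2.1 0, p.2.2])
    (List.forall_mem_cons.2 ⟨a, List.forall_mem_singleton.2 hg⟩)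
    (List.forall_mem_cons.2 ⟨hg, List.forall_mem_singleton.2 c⟩) e
  rw [show [p.1, spGens.getD p.2.1 0] = [p.1] ++ [spGens.getD p.2.1 0] from rfl,
    show [spGens.getD p.2.1 0, p.2.2] = [spGens.getD p.2.1 0] ++ [p.2.2] from rfl, tw_append, tw_append,
    tw_single, tw_single, tw_single] at this
  exact eq_mul_inv_of_mul_eq this

/-- Induction along the tree of vectors. -/
theorem tree_induction {P : ℕ → Prop} (h1 : P (spGens.getD 0 0))
    (hs : ∀ p ∈ spTree, 0 < p.2.2 → P p.2.2 → P p.1) {v : ℕ} (h0 : 0 < v) (hv : v < 64) : P v := by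
  have key : ∀ i, ∀ h : i < spTree.length, P (spTree[i]).1 ∧ 0 < (spTree[i]).1 := by
    intro i
    induction i using Nat.strong_induction_on with
    | _ i ih =>
      intro hi
      have hmem := List.getElem_mem hi
      have ho := List.all_eq_true.1 tree_order i (List.mem_range.2 hi)
      rw [List.getD_eq_getElem _ _ hi] at ho
      simp only [Bool.or_eq_true, decide_eq_true_eq, List.any_eq_true, List.mem_range, beq_iff_eq] at ho
      have hu : P (spTree[i]).2.2 ∧ 0 < (spTree[i]).2.2 := by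
        rcases ho with e | ⟨j, hj, e⟩
        · rw [e]; exact ⟨h1, (gen_lt (show 0 < 7 by norm_num)).1⟩
        · rw [List.getD_eq_getElem _ _ (hj.trans hi)] at e
          rw [← e]; exact ih j hj _
      exact ⟨hs _ hmem hu.2 hu.1, tree_pos _ hmem⟩
  have h := List.all_eq_true.1 tree_mem v (List.mem_range.2 hv)
  simp only [Bool.or_eq_true, decide_eq_true_eq, Nat.ne_of_gt h0, false_or, List.any_eq_true, beq_iff_eq] at h
  rcases h with rfl | ⟨p, hp, rfl⟩
  · exact h1
  · obtain ⟨i, hi, rfl⟩ := List.getElem_of_mem hp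
    exact (key i hi).1

theorem xE_tree {p : ℕ × ℕ × ℕ} (hp : p ∈ spTree) (hu0 : 0 < p.2.2) :
    0 < p.1 ∧ (xE (spGens.getD p.2.1 0) * xE p.2.2 = xE p.1 * xE (spGens.getD p.2.1 0) ∨
      xE (spGens.getD p.2.1 0) * xE p.2.2 = xE p.1 * (nE * xE (spGens.getD p.2.1 0))) := by
  obtain ⟨a, b, c, e⟩ := tree_spec hp
  obtain ⟨t0, ht, h⟩ := gen_conj b hu0 c
  suffices p.1 = tf (spGens.getD p.2.1 0) p.2.2 by rw [this]; exact ⟨t0, h⟩
  exact tree_target p hp

theorem gen_mem {i : ℕ} (hi : i < 7) : xE (spGens.getD i 0) ∈ Cov := Subgroup.subset_closure ⟨i, hi, rfl⟩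

theorem nE_mem : nE ∈ Cov := by
  obtain ⟨h0, h⟩ := gen_lt (show 0 < 7 by norm_num)
  rw [← xE_sq h0 h]
  exact mul_mem (gen_mem (by norm_num)) (gen_mem (by norm_num))

theorem proj_neg : proj ⟨nE, nE_mem⟩ = 1 := by
  refine proj_eq ⟨rfl, fun v h0 hv => ⟨v, h0, hv, ?_, Or.inl (xE_neg h0 hv).symm⟩⟩
  rw [OneMemClass.coe_one, Matrix.one_mulVec]

theorem proj_xE {v : ℕ} (h0 : 0 < v) (hv : v < 64) : ∃ h : xE v ∈ Cov, proj ⟨xE v, h⟩ = tv v := by
  refine tree_induction (P := fun v => ∃ h : xE v ∈ Cov, proj ⟨xE v, h⟩ = tv v)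
    ⟨gen_mem (by norm_num), proj_eq (Rel.gen (by norm_num))⟩ (fun p hp hu0 hu => ?_) h0 hv
  obtain ⟨hu, eu⟩ := hu
  obtain ⟨a, b, c, e⟩ := tree_spec hp
  obtain ⟨-, hc⟩ := xE_tree hp hu0
  let g : Cov := ⟨_, gen_mem b⟩
  let x : Cov := ⟨_, hu⟩
  let z : Cov := ⟨nE, nE_mem⟩
  have eg : proj g = tv (spGens.getD p.2.1 0) := proj_eq (Rel.gen b)
  rcases hc with hc | hc
  · have hm : xE p.1 = ((g * x * g⁻¹ : Cov) : Pm) := eq_mul_inv_of_mul_eq hc.symm
    refine ⟨hm ▸ (g * x * g⁻¹).2, ?_⟩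
    rw [show (⟨xE p.1, _⟩ : Cov) = g * x * g⁻¹ from Subtype.ext hm, map_mul, map_mul, map_inv, eg, eu, e]
  · have hm : xE p.1 = ((g * x * (z * g)⁻¹ : Cov) : Pm) := eq_mul_inv_of_mul_eq hc.symm
    refine ⟨hm ▸ (g * x * (z * g)⁻¹).2, ?_⟩
    rw [show (⟨xE p.1, _⟩ : Cov) = g * x * (z * g)⁻¹ from Subtype.ext hm, map_mul, map_mul, map_inv, map_mul,
      show proj z = 1 from proj_neg, one_mul, eg, eu, e]

theorem proj_surjective : Function.Surjective proj := by
  rw [← MonoidHom.range_eq_top, eq_top_iff, ← tv_closure, Subgroup.closure_le]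
  rintro q ⟨v, h0, hv, rfl⟩
  obtain ⟨h, e⟩ := proj_xE h0 hv
  exact ⟨_, e⟩

theorem conj_sign {g a b y n : Pm} (hna : n * a = a * n) (hnb : n * b = b * n) (hn : n * n = 1) (hgn : g * n = n * g)
    (ha : g * a * g⁻¹ = a ∨ g * a * g⁻¹ = n * a) (hy : y = a * b * a⁻¹ ∨ y = n * (a * b * a⁻¹)) :
    (g * b * g⁻¹ = b → g * y * g⁻¹ = y) ∧ (g * b * g⁻¹ = n * b → g * y * g⁻¹ = n * y) := by
  have hgn' : g * n * g⁻¹ = n := by rw [hgn, mul_inv_cancel_right]
  have hni : n⁻¹ = n := inv_eq_of_mul_eq_one_right hn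
  have base : ∀ c, g * b * g⁻¹ = c → n * c = c * n → g * (a * b * a⁻¹) * g⁻¹ = a * c * a⁻¹ := by
    intro c hc hnc
    rcases ha with ha | ha
    · calc g * (a * b * a⁻¹) * g⁻¹ = (g * a * g⁻¹) * (g * b * g⁻¹) * (g * a * g⁻¹)⁻¹ := by group
        _ = a * c * a⁻¹ := by rw [ha, hc]
    · calc g * (a * b * a⁻¹) * g⁻¹ = (g * a * g⁻¹) * (g * b * g⁻¹) * (g * a * g⁻¹)⁻¹ := by group
        _ = n * a * c * (a⁻¹ * n⁻¹) := by rw [ha, hc, _root_.mul_inv_rev]
        _ = a * (n * c) * (a⁻¹ * n⁻¹) := by rw [hna]; simp only [mul_assoc]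
        _ = a * c * (n * a⁻¹) * n⁻¹ := by rw [hnc]; simp only [mul_assoc]
        _ = a * c * (a⁻¹ * n) * n⁻¹ := by rw [(Commute.inv_right (show Commute n a from hna)).eq]
        _ = a * c * a⁻¹ := by group
  have hf : ∀ c, g * b * g⁻¹ = c → n * c = c * n →
      ∀ (z : Pm), (y = z * (a * b * a⁻¹)) → g * z * g⁻¹ = z → g * y * g⁻¹ = z * (a * c * a⁻¹) := by
    intro c hc hnc z hz hgz
    rw [hz, ← base c hc hnc]
    nth_rw 2 [← hgz]
    group
  have haab : a * (n * b) * a⁻¹ = n * (a * b * a⁻¹) := by rw [← mul_assoc a, ← hna]; simp only [mul_assoc]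
  constructor <;> intro hb <;> rcases hy with hy | hy
  · rw [hf b hb hnb 1 (by rw [one_mul, hy]) (by group), one_mul, hy]
  · rw [hf b hb hnb n hy hgn', hy]
  · rw [hf (n * b) hb (by rw [mul_assoc, ← hnb]) 1 (by rw [one_mul, hy]) (by group), one_mul, haab, hy]
  · rw [hf (n * b) hb (by rw [mul_assoc, ← hnb]) n hy hgn', haab, hy]

/-- The permutation of a word in the generators. -/
noncomputable def gW (w : List ℕ) : Pm := (w.map fun g => xE (spGens.getD g 0)).prod

theorem gW_apply : ∀ w : List ℕ, (∀ g ∈ w, g < 7) → ∀ i : Fin 240, (gW w i).val = gact w i.val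
  | [], _, i => rfl
  | g :: w, h, i => by
    obtain ⟨h0, hk⟩ := gen_lt (h g List.mem_cons_self)
    rw [gW, List.map_cons, List.prod_cons, Equiv.Perm.mul_apply, xE_apply h0 hk, ← gW,
      gW_apply w (fun x hx => h x (List.mem_cons_of_mem _ hx))]
    rfl

theorem lag_prod : ∀ w : List ℕ, (∀ v ∈ w, 0 < v ∧ v < 64) → ∀ i : Fin 240,
    ((w.map xE).prod i).val = w.foldr (fun v x => get (pc v) x) i.val
  | [], _, i => rfl
  | v :: w, h, i => by
    rw [List.map_cons, List.prod_cons, Equiv.Perm.mul_apply, xE_apply (h v List.mem_cons_self).1 (h v List.mem_cons_self).2,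
      lag_prod w (fun x hx => h x (List.mem_cons_of_mem _ hx))]
    rfl

theorem proj_ker {g : Cov} (hg : proj g = 1) : g.1 = 1 ∨ g.1 = nE := by
  obtain ⟨q, hq⟩ := cov_rel g.2
  obtain rfl : q = 1 := (proj_eq hq).symm.trans hg
  have hsign : ∀ v, 0 < v → v < 64 → g.1 * xE v * g.1⁻¹ = xE v ∨ g.1 * xE v * g.1⁻¹ = nE * xE v := by
    intro v h0 hv
    obtain ⟨u, u0, hu, eu, cu⟩ := hq.2 v h0 hv
    rw [OneMemClass.coe_one, Matrix.one_mulVec] at eu
    obtain rfl : u = v := by rw [← toN_vec u hu, ← eu, toN_vec v hv]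
    rcases cu with cu | cu
    · exact Or.inl (mul_inv_eq_iff_eq_mul.2 cu)
    · exact Or.inr (mul_inv_eq_iff_eq_mul.2 (by rw [cu, ← mul_assoc, xE_neg u0 hu]))
  have step : ∀ p ∈ spTree, 0 < p.2.2 →
      ((g.1 * xE p.2.2 * g.1⁻¹ = xE p.2.2 → g.1 * xE p.1 * g.1⁻¹ = xE p.1) ∧
        (g.1 * xE p.2.2 * g.1⁻¹ = nE * xE p.2.2 → g.1 * xE p.1 * g.1⁻¹ = nE * xE p.1)) := by
    intro p hp hu0
    obtain ⟨a, b, c, e⟩ := tree_spec hp
    obtain ⟨k0, hk⟩ := gen_lt b
    obtain ⟨t0, hc⟩ := xE_tree hp hu0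
    refine conj_sign (xE_neg k0 hk).symm (xE_neg hu0 c).symm nE_sq hq.1 (hsign _ k0 hk) ?_
    rcases hc with hc | hc
    · exact Or.inl (eq_mul_inv_of_mul_eq hc.symm)
    · refine Or.inr ?_
      rw [← mul_assoc, xE_neg t0 a, mul_assoc] at hc
      rw [hc, ← mul_assoc nE (xE p.1), mul_inv_cancel_right, ← mul_assoc, nE_sq, one_mul]
  have hcomm : ∀ v, 0 < v → v < 64 → g.1 * xE v * g.1⁻¹ = xE v := by
    rcases hsign _ (gen_lt (show 0 < 7 by norm_num)).1 (gen_lt (show 0 < 7 by norm_num)).2 with h | h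
    · exact fun v h0 hv => tree_induction (P := fun v => g.1 * xE v * g.1⁻¹ = xE v) h
        (fun p hp hu0 hu => (step p hp hu0).1 hu) h0 hv
    exfalso
    have hall : ∀ v, 0 < v → v < 64 → g.1 * xE v * g.1⁻¹ = nE * xE v := fun v h0 hv =>
      tree_induction (P := fun v => g.1 * xE v * g.1⁻¹ = nE * xE v) h (fun p hp hu0 hu => (step p hp hu0).2 hu) h0 hv
    obtain ⟨hl, hlt, hp⟩ := lag_ok
    have hlt' : ∀ v ∈ spLag, 0 < v ∧ v < 64 := fun v hv => by simpa using List.all_eq_true.1 hlt v hv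
    have hprod : ∀ w : List ℕ, (∀ v ∈ w, 0 < v ∧ v < 64) →
        g.1 * (w.map xE).prod * g.1⁻¹ = nE ^ w.length * (w.map xE).prod := by
      intro w
      induction w with
      | nil => intro _; simp
      | cons v w ih =>
        intro hw
        obtain ⟨h0, hv⟩ := hw v List.mem_cons_self
        rw [List.map_cons, List.prod_cons, List.length_cons]
        calc g.1 * (xE v * (w.map xE).prod) * g.1⁻¹ = (g.1 * xE v * g.1⁻¹) * (g.1 * (w.map xE).prod * g.1⁻¹) := by group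
          _ = nE * (xE v * nE ^ w.length) * (w.map xE).prod := by
            rw [hall v h0 hv, ih fun x hx => hw x (List.mem_cons_of_mem _ hx)]; simp only [mul_assoc]
          _ = _ := by
            rw [(Commute.pow_right (show Commute (xE v) nE from xE_neg h0 hv) _).eq, pow_succ']
            simp only [mul_assoc]
    have h7 := hprod spLag hlt'
    have hP : (spLag.map xE).prod = 1 ∨ (spLag.map xE).prod = nE := by
      simp only [Bool.or_eq_true, List.all_eq_true, List.mem_range, beq_iff_eq] at hp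
      refine hp.imp (fun h => Equiv.ext fun i => Fin.ext ?_) (fun h => Equiv.ext fun i => Fin.ext ?_)
      · rw [lag_prod _ hlt', h i.val i.2]; rfl
      · rw [lag_prod _ hlt', h i.val i.2, nE_get]
    have hfix : g.1 * (spLag.map xE).prod * g.1⁻¹ = (spLag.map xE).prod := by
      rcases hP with e | e <;> rw [e]
      · group
      · rw [hq.1, mul_inv_cancel_right]
    rw [hfix, hl, show nE ^ 7 = nE by simp only [pow_succ, pow_zero, one_mul, mul_assoc, nE_sq, mul_one]] at h7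
    exact nE_ne (mul_eq_right.1 h7.symm)
  have hW : ∀ w : List ℕ, (∀ x ∈ w, x < 7) → g.1 * gW w = gW w * g.1 := by
    intro w hw
    refine (Commute.list_prod_right _ g.1 fun y hy => ?_).eq
    obtain ⟨x, hx, rfl⟩ := List.mem_map.1 hy
    obtain ⟨h0, hk⟩ := gen_lt (hw x hx)
    exact mul_inv_eq_iff_eq_mul.1 (hcomm _ h0 hk)
  set o : Fin 240 := ⟨0, by norm_num⟩ with ho
  set s : Fin 240 := g.1 o with hs
  have hs' : s = o ∨ s = nE o := by
    have h := List.all_eq_true.1 stab_ok.2 s.val (List.mem_range.2 s.2)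
    simp only [Bool.or_eq_true, decide_eq_true_eq, List.any_eq_true, Bool.not_eq_true', beq_eq_false_iff_ne] at h
    rcases h with (h | h) | ⟨w, hw, hne⟩
    · exact Or.inl (Fin.ext h)
    · exact Or.inr (Fin.ext (h.trans (nE_get o).symm))
    · have hw' := List.all_eq_true.1 stab_ok.1 w hw
      simp only [Bool.and_eq_true, List.all_eq_true, decide_eq_true_eq, beq_iff_eq] at hw'
      refine absurd ?_ hne
      have e : gW w o = o := Fin.ext ((gW_apply w hw'.1 o).trans hw'.2)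
      have := Equiv.congr_fun (hW w hw'.1) o
      rw [Equiv.Perm.mul_apply, Equiv.Perm.mul_apply, e, ← hs] at this
      rw [← gW_apply w hw'.1 s, ← this]
  have hi : ∀ i : Fin 240, ∃ w : List ℕ, (∀ x ∈ w, x < 7) ∧ gW w o = i := by
    intro i
    have h := List.all_eq_true.1 path_ok.2 i.val (List.mem_range.2 i.2)
    simp only [Bool.and_eq_true, List.all_eq_true, decide_eq_true_eq, beq_iff_eq] at h
    exact ⟨_, h.1, Fin.ext ((gW_apply _ h.1 o).trans h.2)⟩
  have hN : ∀ w : List ℕ, (∀ x ∈ w, x < 7) → nE * gW w = gW w * nE := by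
    intro w hw
    refine (Commute.list_prod_right _ nE fun y hy => ?_).eq
    obtain ⟨x, hx, rfl⟩ := List.mem_map.1 hy
    obtain ⟨h0, hk⟩ := gen_lt (hw x hx)
    exact (xE_neg h0 hk).symm
  refine hs'.imp (fun e => Equiv.ext fun i => ?_) (fun e => Equiv.ext fun i => ?_) <;>
    (obtain ⟨w, hw, rfl⟩ := hi i; have := Equiv.congr_fun (hW w hw) o
     rw [Equiv.Perm.mul_apply, Equiv.Perm.mul_apply, ← hs, e] at this
     rw [this])
  · rfl
  · exact (Equiv.congr_fun (hN w hw) o).symm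

theorem cover_stem : ∃ σ : Cov →* Q, Cfsg.IsStemExtension σ ∧ Nat.card σ.ker = 2 := by
  let z : Cov := ⟨nE, nE_mem⟩
  have hk : ∀ x ∈ proj.ker, x = 1 ∨ x = z := fun x hx => (proj_ker hx).imp Subtype.ext Subtype.ext
  obtain ⟨x0, hx, y0, hy, hxy, hne⟩ := xy_ok
  obtain ⟨hX, eX⟩ := proj_xE x0 hx
  obtain ⟨hY, eY⟩ := proj_xE y0 hy
  let X : Cov := ⟨_, hX⟩
  let Y : Cov := ⟨_, hY⟩
  have hc1 : ⁅X, Y⁆ ≠ 1 := by
    intro h
    obtain ⟨i, hi, hne⟩ := List.any_eq_true.1 hne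
    simp only [List.mem_range, Bool.not_eq_true', beq_eq_false_iff_ne] at hi hne
    refine hne ?_
    have := congrArg (fun q : Cov => ((q : Pm) ⟨i, hi⟩).val) (commutatorElement_eq_one_iff_mul_comm.1 h)
    simpa only [Subgroup.coe_mul, Equiv.Perm.mul_apply, X, Y, xE_apply x0 hx, xE_apply y0 hy] using this
  have hcz : ⁅X, Y⁆ = z := (hk _ (by
    rw [MonoidHom.mem_ker, map_commutatorElement, eX, eY, commutatorElement_eq_one_iff_mul_comm]
    have := eqW_sound (u := [spX, spY]) (w := [spY, spX]) (by simp [Ok, hx, hy]) (by simp [Ok, hx, hy]) hxy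
    rwa [show [spX, spY] = [spX] ++ [spY] from rfl, show [spY, spX] = [spY] ++ [spX] from rfl, tw_append,
      tw_append, tw_single, tw_single] at this)).resolve_left hc1
  refine ⟨proj, ⟨proj_surjective, fun x hx => ?_, fun x hx => ?_⟩, ?_⟩
  · rcases hk x hx with rfl | rfl
    · exact one_mem _
    · refine Subgroup.mem_center_iff.2 fun y => Subtype.ext ?_
      exact (cov_rel y.2).choose_spec.1
  · rcases hk x hx with rfl | rfl
    · exact one_mem _
    · rw [← hcz]; exact Subgroup.commutator_mem_commutator (Subgroup.mem_top X) (Subgroup.mem_top Y)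
  · have hne : z ≠ 1 := fun h => nE_ne (congrArg Subtype.val h)
    rw [Nat.card_eq_two_iff]
    refine ⟨1, ⟨z, proj_neg⟩, fun h => hne (congrArg Subtype.val h).symm, Set.eq_univ_of_forall fun x => ?_⟩
    rcases hk x x.2 with h | h
    · exact Or.inl (Subtype.ext h)
    · exact Or.inr (Subtype.ext h)

end Cfsg.Agent.FGS2.SpSix
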