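import Cfsg.Agent.FGS2.SpSix.Cover
import Cfsg.Agent.FGS2.J2.SchurTwoClass

/-! The Schur multiplier of the symplectic group of dimension six over two elements has order two. -/

set_option autoImplicit false
set_option maxRecDepth 100000

namespace Cfsg.Agent.FGS2.SpSix

open Matrix FGS4.SchurSylow
open scoped commutatorElement

universe u

theorem words_ok :
    ((spE.all fun w => w.all fun v => decide (v < 64)) && (spReps.all fun w => w.all fun v => decide (v < 64)) &&
      (spFour.all fun w => w.all fun v => decide (v < 64)) &&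
      (spSqsWit.all fun p => p.2.all fun v => decide (v < 64)) &&
      (spEWit.all fun p => p.2.all fun v => decide (v < 64)) &&
      (spT.all fun v => decide (v < 64)) && spSqsWit.all fun p => decide (p.1 < 4)) = true := by decide +kernel

theorem eWit_lt : ((List.range 9).all fun a => decide ((spEWit.getD a (0, [])).1 < 4)) = true := by decide +kernel

theorem ok_getD {l : List (List ℕ)} (h : (l.all fun w => w.all fun v => decide (v < 64)) = true) (i : ℕ) :
    Ok (l.getD i []) := by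
  intro v hv
  by_cases hi : i < l.length
  · rw [List.getD_eq_getElem _ _ hi] at hv
    simpa using List.all_eq_true.1 (List.all_eq_true.1 h _ (List.getElem_mem hi)) v hv
  · rw [List.getD_eq_default _ _ (not_lt.1 hi)] at hv
    simp at hv

theorem ok_getD_snd {l : List (ℕ × List ℕ)} (h : (l.all fun p => p.2.all fun v => decide (v < 64)) = true) (i : ℕ) :
    Ok (l.getD i (0, [])).2 := by
  intro v hv
  by_cases hi : i < l.length
  · rw [List.getD_eq_getElem _ _ hi] at hv
    simpa using List.all_eq_true.1 (List.all_eq_true.1 h _ (List.getElem_mem hi)) v hv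
  · rw [List.getD_eq_default _ _ (not_lt.1 hi)] at hv
    simp at hv

theorem ok_E (a : ℕ) : Ok (spE.getD a []) := ok_getD (by
  have := words_ok; simp only [Bool.and_eq_true] at this; exact this.1.1.1.1.1.1) a

theorem ok_reps (a : ℕ) : Ok (spReps.getD a []) := ok_getD (by
  have := words_ok; simp only [Bool.and_eq_true] at this; exact this.1.1.1.1.1.2) a

theorem ok_four (a : ℕ) : Ok (spFour.getD a []) := ok_getD (by
  have := words_ok; simp only [Bool.and_eq_true] at this; exact this.1.1.1.1.2) a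

theorem ok_sqsWit (a : ℕ) : Ok (spSqsWit.getD a (0, [])).2 := ok_getD_snd (by
  have := words_ok; simp only [Bool.and_eq_true] at this; exact this.1.1.1.2) a

theorem ok_eWit (a : ℕ) : Ok (spEWit.getD a (0, [])).2 := ok_getD_snd (by
  have := words_ok; simp only [Bool.and_eq_true] at this; exact this.1.1.2) a

theorem ok_T : Ok spT := fun v hv => by
  have := words_ok; simp only [Bool.and_eq_true] at this
  simpa using List.all_eq_true.1 this.1.2 v hv

/-- A generator of the Sylow subgroup. -/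
noncomputable def eG (a : ℕ) : Q := tw (spE.getD a [])

/-- A representative of a class of involutions. -/
noncomputable def cls (c : ℕ) : Q := tw (spReps.getD c [])

theorem ok_flat : ∀ w : List ℕ, Ok (flat w)
  | [] => fun v hv => by simp [flat] at hv
  | a :: w => (ok_E a).append (ok_flat w)

theorem ev_eG : ∀ w : List ℕ, Collect.ev eG w = tw (flat w)
  | [] => rfl
  | a :: w => by
    rw [Collect.ev_cons, ev_eG w, eG, ← tw_append]
    rfl

theorem conj_sound {k c q : List ℕ} (hk : Ok k) (hc : Ok c) (hq : Ok q) (h : eqW (k ++ c) (q ++ k) = true) :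
    ∃ g : Q, g * tw c * g⁻¹ = tw q :=
  ⟨tw k, mul_inv_eq_iff_eq_mul.2 (by rw [← tw_append, ← tw_append]; exact eqW_sound (hk.append hc) (hq.append hk) h)⟩

theorem eG_rel (a b : ℕ) (hb : b < a) (ha : a < 9) :
    eG a * eG b = eG b * Collect.ev eG (Collect.word cert.tab a b) := by
  have h := List.all_eq_true.1 (List.all_eq_true.1 spE_rel a (List.mem_range.2 ha)) b
    (List.mem_range.2 (hb.trans ha))
  simp only [decide_eq_true hb, Bool.not_true, Bool.false_or] at h
  rw [ev_eG, eG, eG, ← tw_append, ← tw_append]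
  exact eqW_sound ((ok_E a).append (ok_E b)) ((ok_E b).append (ok_flat _)) h

theorem cls_sq (c : ℕ) (hc : c < 4) : cls c * cls c = 1 := by
  rw [cls, ← tw_append, ← tw_nil]
  exact eqW_sound ((ok_reps c).append (ok_reps c)) (fun v hv => by simp at hv)
    (List.all_eq_true.1 reps_ok c (List.mem_range.2 hc))

theorem eG_conj (a : ℕ) (ha : a < 9) : ∃ k : Q, k * cls (cert.sqi.getD a 81 - 81) * k⁻¹ = eG a := by
  have h := List.all_eq_true.1 eWit_ok a (List.mem_range.2 ha)
  simp only [Bool.and_eq_true, decide_eq_true_eq] at h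
  rw [show cert.sqi = spSqIdx from rfl, h.1, Nat.add_sub_cancel_left]
  exact conj_sound (ok_eWit a) (ok_reps _) (ok_E a) h.2

theorem eG_sq (a : ℕ) (ha : a < 9) : eG a * eG a = 1 := by
  obtain ⟨k, hk⟩ := eG_conj a ha
  have h := List.all_eq_true.1 eWit_ok a (List.mem_range.2 ha)
  simp only [Bool.and_eq_true, decide_eq_true_eq] at h
  have hc : cert.sqi.getD a 81 - 81 < 4 := by
    rw [show cert.sqi = spSqIdx from rfl, h.1, Nat.add_sub_cancel_left]
    simpa using List.all_eq_true.1 eWit_lt a (List.mem_range.2 ha)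
  rw [← hk]
  calc k * cls (cert.sqi.getD a 81 - 81) * k⁻¹ * (k * cls (cert.sqi.getD a 81 - 81) * k⁻¹)
      = k * (cls (cert.sqi.getD a 81 - 81) * cls (cert.sqi.getD a 81 - 81)) * k⁻¹ := by group
    _ = 1 := by rw [cls_sq _ hc]; group

theorem sqs_conj (q : List ℕ × ℕ) (hq : q ∈ cert.sqs) : ∃ k : Q, k * cls q.2 * k⁻¹ = Collect.ev eG q.1 := by
  obtain ⟨i, hi, rfl⟩ := List.getElem_of_mem hq
  have hi' : i < spSqs.length ∧ i < spSqsWit.length := by
    have : (List.zipWith (fun w c => (w, c.1)) spSqs spSqsWit).length = _ := List.length_zipWith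
    have h2 : i < (List.zipWith (fun w c => (w, c.1)) spSqs spSqsWit).length := hi
    omega
  have e : cert.sqs[i] = (spSqs.getD i [], (spSqsWit.getD i (0, [])).1) := by
    rw [List.getD_eq_getElem _ _ hi'.1, List.getD_eq_getElem _ _ hi'.2]
    exact List.getElem_zipWith
  rw [e, ev_eG]
  exact conj_sound (ok_sqsWit i) (ok_reps _) (ok_flat _) (List.all_eq_true.1 sqs_ok.2 i (List.mem_range.2 hi'.1))

theorem card_tail_le : Nat.card (Subgroup.closure (Collect.tail eG 0)) ≤ 512 := by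
  have ht : Collect.tabOK cert.tab = true := by
    have := cert_ok
    simp only [Collect.Cert.ok, Bool.and_eq_true] at this
    exact this.1.1.1.1.1
  suffices ∀ k, k ≤ 9 → Nat.card (Subgroup.closure (Collect.tail eG (9 - k))) ≤ 2 ^ k by
    simpa using this 9 le_rfl
  intro k
  induction k with
  | zero =>
    intro _
    have : Collect.tail eG (9 - 0) = (∅ : Set Q) := Set.eq_empty_iff_forall_notMem.2 fun x ⟨j, a, b, _⟩ => by omega
    rw [this, Subgroup.closure_empty, Subgroup.card_bot, pow_zero]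
  | succ k ih =>
    intro hk
    have hins : Collect.tail eG (9 - (k + 1)) = insert (eG (9 - (k + 1))) (Collect.tail eG (9 - k)) := by
      ext x
      simp only [Collect.tail, Set.mem_insert_iff, Set.mem_ofPred_eq]
      constructor
      · rintro ⟨j, hj, hj9, rfl⟩
        rcases eq_or_lt_of_le hj with rfl | h
        · exact Or.inl rfl
        · exact Or.inr ⟨j, by omega, hj9, rfl⟩
      · rintro (rfl | ⟨j, hj, hj9, rfl⟩)
        · exact ⟨_, le_rfl, by omega, rfl⟩
        · exact ⟨j, by omega, hj9, rfl⟩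
    rw [hins, pow_succ']
    refine le_trans (card_closure_insert_le (eG_sq _ (by omega)) ?_) (Nat.mul_le_mul_left 2 (ih (by omega)))
    rintro x ⟨j, hj, hj9, rfl⟩
    rw [mul_assoc, eG_rel j (9 - (k + 1)) (by omega) hj9, ← mul_assoc, eG_sq _ (by omega), one_mul]
    refine list_prod_mem fun y hy => ?_
    obtain ⟨c, hcm, rfl⟩ := List.mem_map.1 hy
    have := List.all_eq_true.1 (List.all_eq_true.1 ht j (List.mem_range.2 hj9)) (9 - (k + 1))
      (List.mem_range.2 (by omega))
    simp only [List.all_eq_true, Bool.and_eq_true, decide_eq_true_eq] at this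
    exact Subgroup.subset_closure ⟨c, by have := (this c hcm).2; omega, (this c hcm).1, rfl⟩

theorem card_tail : Nat.card (Subgroup.closure (Collect.tail eG 0)) = 512 := by
  refine le_antisymm card_tail_le ?_
  let f : Fin 512 → Subgroup.closure (Collect.tail eG 0) := fun n =>
    ⟨Collect.ev eG ((List.range 9).filter fun i => n.val.testBit i), list_prod_mem fun y hy => by
      obtain ⟨c, hc, rfl⟩ := List.mem_map.1 hy
      exact Subgroup.subset_closure ⟨c, Nat.zero_le _, List.mem_range.1 (List.mem_filter.1 hc).1, rfl⟩⟩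
  have hf : Function.Injective f := fun m n h => by
    have h' := congrArg Subtype.val h
    simp only [f, ev_eG] at h'
    exact Fin.ext (List.inj_on_of_nodup_map sylow_distinct (List.mem_range.2 m.2) (List.mem_range.2 n.2)
      (finger_sound (ok_flat _) (ok_flat _) h'))
  have := Nat.card_le_card_of_injective f hf
  rwa [Nat.card_fin] at this

theorem exists_sylow_two : ∃ S : Sylow 2 Q, (S : Subgroup Q) = Subgroup.closure (Collect.tail eG 0) := by
  haveI : Fact (Nat.Prime 2) := ⟨Nat.prime_two⟩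
  obtain ⟨S, hS⟩ := (IsPGroup.of_card (n := 9) (by rw [card_tail]; norm_num) :
    IsPGroup 2 (Subgroup.closure (Collect.tail eG 0))).exists_le_sylow
  exact ⟨S, (Subgroup.eq_of_le_of_card_ge hS (by
    rw [card_tail, J2.SchurTwoClass.sylow_card card_Q Nat.prime_two (k := 9) (by norm_num) (by norm_num) S]
    norm_num)).symm⟩

theorem no_kernel_two (Δ : Type u) (iG : Group Δ) (iF : Finite Δ) (τ : Δ →* Q) (hτ : Cfsg.IsStemExtension τ)
    (z : Δ) (hz : z ∈ τ.ker) (hzo : orderOf z = 2) (hker : ∀ w ∈ τ.ker, w * w = 1)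
    (hU : ∃ U : Δ, τ U = cls 1 ∧ U * U = 1) : False := by
  obtain ⟨S, hS⟩ := exists_sylow_two
  obtain ⟨U, eU, eU1⟩ := hU
  refine Collect.no_kernel hτ hker cert cert_ok eG eG_rel cls cls_sq (fun X hX => ?_) sqs_conj eG_conj S hS
    (by rw [hS, card_tail]) hz hzo
  rw [sq_eq_of_isConj hτ hker (cls_sq 1 (by norm_num)) ⟨1, by simp [cert]⟩ eU hX, eU1]

/-- An element of order three. -/
noncomputable def uG (i : Fin 3) : Q := tw (uW i.val)

theorem ok_uW : ∀ i < 4, Ok (uW i) := by decide +kernel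

theorem uW_mod : ∀ i : Fin 3, uW (i.val + 1) = uW (i + 1 : Fin 3).val := by decide +kernel

theorem three_facts (i : Fin 3) : uG i * uG i * uG i = 1 ∧ tw spT * uG i = uG (i + 1) * tw spT ∧
    tv (2 ^ i.val) * uG i = uG i * uG i * tv (2 ^ i.val) ∧
    ∀ j : Fin 3, i ≠ j → tv (2 ^ i.val) * uG j = uG j * tv (2 ^ i.val) ∧ uG i * uG j = uG j * uG i := by
  have h := List.all_eq_true.1 three_ok.1 i.val (List.mem_range.2 i.2)
  simp only [Bool.and_eq_true] at h
  obtain ⟨⟨⟨⟨h1, -⟩, h2⟩, h3⟩, h4⟩ := h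
  have hu : ∀ j : Fin 3, Ok (uW j.val) := fun j => ok_uW _ (by omega)
  have hg : Ok [2 ^ i.val] := List.forall_mem_singleton.2 (by
    calc (2 : ℕ) ^ i.val ≤ 2 ^ 2 := Nat.pow_le_pow_right (by norm_num) (by omega)
      _ < 64 := by norm_num)
  refine ⟨?_, ?_, ?_, fun j hij => ?_⟩
  · rw [uG, ← tw_append, ← tw_append, ← tw_nil]
    exact eqW_sound (((hu i).append (hu i)).append (hu i)) (fun v hv => by simp at hv) h1
  · rw [uG, uG, ← tw_append, ← tw_append, ← uW_mod]
    exact eqW_sound (ok_T.append (hu i)) ((ok_uW _ (by omega)).append ok_T) h2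
  · rw [← tw_single (2 ^ i.val), uG, ← tw_append, ← tw_append, ← tw_append]
    exact eqW_sound (hg.append (hu i)) (((hu i).append (hu i)).append hg) h3
  · have h5 := List.all_eq_true.1 h4 j.val (List.mem_range.2 j.2)
    simp only [Bool.or_eq_true, decide_eq_true_eq, Bool.and_eq_true, Fin.val_injective.ne hij, false_or] at h5
    constructor
    · rw [← tw_single (2 ^ i.val), uG, ← tw_append, ← tw_append]
      exact eqW_sound (hg.append (hu j)) ((hu j).append hg) h5.1
    · rw [uG, uG, ← tw_append, ← tw_append]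
      exact eqW_sound ((hu i).append (hu j)) ((hu j).append (hu i)) h5.2

theorem spT_cube : tw spT * tw spT * tw spT = 1 := by
  rw [← tw_append, ← tw_append, ← tw_nil]
  exact eqW_sound ((ok_T.append ok_T).append ok_T) (fun v hv => by simp at hv) three_ok.2

theorem tw_rep {w : List ℕ} : ∀ n : ℕ, tw (List.replicate n w).flatten = tw w ^ n
  | 0 => by rw [pow_zero]; rfl
  | n + 1 => by rw [List.replicate_succ, List.flatten_cons, tw_append, tw_rep n, pow_succ']

theorem ok_rep {w : List ℕ} (hw : Ok w) (n : ℕ) : Ok (List.replicate n w).flatten := fun v hv => by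
  obtain ⟨l, hl, hv⟩ := List.mem_flatten.1 hv
  exact hw v ((List.mem_replicate.1 hl).2 ▸ hv)

theorem ok_uPow (n : ℕ) : Ok (uPow n) := by
  have h := fun i (hi : i < 4) m => ok_rep (ok_uW i hi) m
  exact (((h 0 (by norm_num) _).append (h 1 (by norm_num) _)).append (h 2 (by norm_num) _)).append (ok_rep ok_T _)

/-- The words for the quotients of neighbouring elements. -/
def dW (a b : ℕ) : List ℕ :=
  (List.replicate a (uW 1 ++ (uW 0 ++ uW 0))).flatten ++ (List.replicate b (uW 2 ++ (uW 1 ++ uW 1))).flatten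

theorem dW_ok : ((List.range 3).all fun a => (List.range 3).all fun b =>
    (decide (a = 0) && decide (b = 0)) || !(finger (dW a b) == finger [])) = true := by decide +kernel

theorem uG_inv (i : Fin 3) : (uG i)⁻¹ = uG i * uG i :=
  inv_eq_of_mul_eq_one_right (by rw [← mul_assoc]; exact (three_facts i).1)

theorem dW_indep : ∀ a < 3, ∀ b < 3, (uG 1 * (uG 0)⁻¹) ^ a * (uG 2 * (uG 1)⁻¹) ^ b = 1 → a = 0 ∧ b = 0 := by
  intro a ha b hb h
  have hu : ∀ i < 4, Ok (uW i) := ok_uW
  have e : tw (dW a b) = tw [] := by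
    rw [dW, tw_append, tw_rep, tw_rep, tw_append, tw_append, tw_append, tw_append, tw_nil, ← h, uG_inv, uG_inv]
    rfl
  have hw : Ok (dW a b) :=
    (ok_rep ((hu 1 (by norm_num)).append ((hu 0 (by norm_num)).append (hu 0 (by norm_num)))) a).append
      (ok_rep ((hu 2 (by norm_num)).append ((hu 1 (by norm_num)).append (hu 1 (by norm_num)))) b)
  have h' := List.all_eq_true.1 (List.all_eq_true.1 dW_ok a (List.mem_range.2 ha)) b (List.mem_range.2 hb)
  rw [finger_sound hw (fun v hv => by simp at hv) e] at h'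
  simpa using h'

theorem exists_sylow_three : ∃ S : Sylow 3 Q, ∀ y ∈ (S : Subgroup Q),
    ∃ a ∈ Subgroup.closure (Set.range uG), ∃ n : ℕ, y = a * tw spT ^ n := by
  haveI : Fact (Nat.Prime 3) := ⟨Nat.prime_three⟩
  set A := Subgroup.closure (Set.range uG) with hA
  have hAc := Subgroup.isMulCommutative_closure (k := Set.range uG) (by
    rintro _ ⟨i, rfl⟩ _ ⟨j, rfl⟩
    by_cases h : i = j
    · rw [h]
    · exact ((three_facts i).2.2.2 j h).2)
  have hAp : IsPGroup 3 A := by
    rintro ⟨x, hx⟩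
    refine ⟨1, Subtype.ext ?_⟩
    show x ^ (3 ^ 1) = 1
    rw [pow_one]
    induction hx using Subgroup.closure_induction with
    | mem a ha => obtain ⟨i, rfl⟩ := ha; rw [pow_succ, pow_two]; exact (three_facts i).1
    | one => exact one_pow 3
    | mul a b ha hb iha ihb =>
      rw [(show Commute a b from congrArg Subtype.val (hAc.is_comm.comm ⟨a, ha⟩ ⟨b, hb⟩)).mul_pow, iha, ihb, one_mul]
    | inv a ha iha => rw [inv_pow, iha, inv_one]
  have t3 : tw spT ^ 3 = 1 := by rw [pow_succ, pow_two]; exact spT_cube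
  have hZp : IsPGroup 3 (Subgroup.zpowers (tw spT)) := by
    rintro ⟨_, i, rfl⟩
    refine ⟨1, Subtype.ext ?_⟩
    show (tw spT ^ i) ^ (3 ^ 1) = 1
    rw [pow_one, ← zpow_natCast, ← _root_.zpow_mul, mul_comm, _root_.zpow_mul, zpow_natCast, t3, _root_.one_zpow]
  have hnorm : Subgroup.zpowers (tw spT) ≤ Subgroup.normalizer (A : Set Q) := by
    rw [Subgroup.zpowers_le]
    refine Subgroup.mem_normalizer_fintype fun x hx => ?_
    have hle : A ≤ A.comap (MulAut.conj (tw spT)).toMonoidHom := by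
      rw [hA, Subgroup.closure_le]
      rintro _ ⟨i, rfl⟩
      show tw spT * uG i * (tw spT)⁻¹ ∈ A
      rw [(three_facts i).2.1, mul_inv_cancel_right]
      exact Subgroup.subset_closure ⟨_, rfl⟩
    exact hle hx
  have hT : IsPGroup 3 ↥(A ⊔ Subgroup.zpowers (tw spT)) := hAp.to_sup_of_normal_left' hZp hnorm
  obtain ⟨S, hS⟩ := hT.exists_le_sylow
  have hcard : 81 ≤ Nat.card ↥(A ⊔ Subgroup.zpowers (tw spT)) := by
    let f : Fin 81 → ↥(A ⊔ Subgroup.zpowers (tw spT)) := fun n => ⟨tw (uPow n.val), by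
      rw [uPow, tw_append, tw_append, tw_append, tw_rep, tw_rep, tw_rep, tw_rep]
      refine mul_mem (mul_mem (mul_mem ?_ ?_) ?_)
        (Subgroup.mem_sup_right (pow_mem (Subgroup.mem_zpowers _) _))
      · exact Subgroup.mem_sup_left (pow_mem (Subgroup.subset_closure (Set.mem_range_self 0)) _)
      · exact Subgroup.mem_sup_left (pow_mem (Subgroup.subset_closure (Set.mem_range_self 1)) _)
      · exact Subgroup.mem_sup_left (pow_mem (Subgroup.subset_closure (Set.mem_range_self 2)) _)⟩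
    have hf : Function.Injective f := fun m n h =>
      Fin.ext (List.inj_on_of_nodup_map three_distinct (List.mem_range.2 m.2) (List.mem_range.2 n.2)
        (finger_sound (ok_uPow _) (ok_uPow _) (congrArg Subtype.val h)))
    have := Nat.card_le_card_of_injective f hf
    rwa [Nat.card_fin] at this
  refine ⟨S, fun y hy => ?_⟩
  rw [← Subgroup.eq_of_le_of_card_ge hS (by
    rw [J2.SchurTwoClass.sylow_card card_Q Nat.prime_three (k := 4) (by norm_num) (by norm_num) S]
    exact hcard), ← SetLike.mem_coe, Subgroup.coe_mul_of_right_le_normalizer_left _ _ hnorm] at hy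
  obtain ⟨a, ha, b, hb, rfl⟩ := hy
  obtain ⟨n, rfl⟩ := mem_powers_iff_mem_zpowers.2 hb
  exact ⟨a, ha, n, rfl⟩

theorem comm_rearrange {M : Type*} [CommGroup M] (p q r s : M) :
    p * q * r⁻¹ * s⁻¹ = (q * s⁻¹) * (r * p⁻¹)⁻¹ := by
  rw [_root_.mul_inv_rev, inv_inv]; ac_rfl

theorem comm_telescope {M : Type*} [CommGroup M] (a b c x y z : M) (h : a * b * c = 1) :
    a * y * x⁻¹ * (b * z * y⁻¹) * (c * x * z⁻¹) = 1 := by
  calc _ = a * b * c * (x * x⁻¹) * (y * y⁻¹) * (z * z⁻¹) := by ac_rfl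
    _ = 1 := by simp [h]

theorem three_false {Γ : Type u} [Group Γ] [Finite Γ] {σ : Γ →* Q} (hσ : Cfsg.IsStemExtension σ) {z : Γ}
    (hz : z ∈ σ.ker) (hzo : orderOf z = 3) : False := by
  haveI : Fact (Nat.Prime 3) := ⟨Nat.prime_three⟩
  obtain ⟨S, hS⟩ := exists_sylow_three
  have hc : ∀ w ∈ σ.ker, ∀ y : Γ, y * w = w * y := fun w hw => Subgroup.mem_center_iff.1 (hσ.2.1 hw)
  choose U hU using fun i => hσ.1 (uG i)
  choose G hG using fun i : Fin 3 => hσ.1 (tv (2 ^ i.val))
  obtain ⟨T, hT⟩ := hσ.1 (tw spT)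
  have hz3 : ∀ i, U i ^ 3 ∈ σ.ker := fun i => by
    rw [MonoidHom.mem_ker, map_pow, hU, pow_succ, pow_two]; exact (three_facts i).1
  have hcomm : ∀ i j, U i * U j = U j * U i := by
    intro i j
    by_cases hij : i = j
    · rw [hij]
    obtain ⟨hgj, huij⟩ := (three_facts i).2.2.2 j hij
    obtain ⟨c, hcm, e⟩ : ∃ c ∈ σ.ker, U i * U j = c * (U j * U i) :=
      ⟨U i * U j * (U j * U i)⁻¹, by
        rw [MonoidHom.mem_ker, map_mul, map_inv, map_mul, map_mul, hU, hU, huij, mul_inv_cancel],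
        (inv_mul_cancel_right _ _).symm⟩
    obtain ⟨k, hk, e1⟩ : ∃ k ∈ σ.ker, G i * U i * (G i)⁻¹ = k * (U i)⁻¹ :=
      ⟨G i * U i * (G i)⁻¹ * U i, by
        rw [MonoidHom.mem_ker, map_mul, map_mul, map_mul, map_inv, hU, hG, (three_facts i).2.2.1]
        simp only [mul_inv_cancel_right]
        exact (three_facts i).1, (mul_inv_cancel_right _ _).symm⟩
    obtain ⟨l, hl, e2⟩ : ∃ l ∈ σ.ker, G i * U j * (G i)⁻¹ = l * U j :=
      ⟨G i * U j * (G i)⁻¹ * (U j)⁻¹, by
        rw [MonoidHom.mem_ker, map_mul, map_mul, map_mul, map_inv, map_inv, hU, hG, hgj, mul_inv_cancel_right,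
          mul_inv_cancel], (inv_mul_cancel_right _ _).symm⟩
    have h1 : (U i)⁻¹ * U j = c * (U j * (U i)⁻¹) := by
      have := congrArg (fun x => G i * x * (G i)⁻¹) e
      have e3 : G i * (U i * U j) * (G i)⁻¹ = k * l * ((U i)⁻¹ * U j) := by
        rw [← conj_mul, e1, e2, mul_assoc k, ← mul_assoc _ l, hc l hl]; simp only [mul_assoc]
      have e4 : G i * (c * (U j * U i)) * (G i)⁻¹ = k * l * (c * (U j * (U i)⁻¹)) := by
        calc G i * (c * (U j * U i)) * (G i)⁻¹ = (G i * c * (G i)⁻¹) * ((G i * U j * (G i)⁻¹) * (G i * U i * (G i)⁻¹)) := by group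
          _ = c * (l * (U j * k) * (U i)⁻¹) := by
            rw [hc c hcm, mul_inv_cancel_right, e1, e2]; simp only [mul_assoc]
          _ = c * (k * l) * (U j * (U i)⁻¹) := by
            rw [hc k hk (U j), ← mul_assoc l, hc k hk l]; simp only [mul_assoc]
          _ = _ := by rw [← hc c hcm (k * l), mul_assoc]
      rw [e3, e4] at this
      exact mul_left_cancel this
    have hc2 : c * c = 1 := by
      have h2 : U j = c * c * U j :=
        calc U j = U i * ((U i)⁻¹ * U j) := by group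
          _ = c * (U i * U j) * (U i)⁻¹ := by rw [h1, ← mul_assoc, hc c hcm]; group
          _ = c * c * U j := by rw [e]; group
      exact mul_eq_right.1 h2.symm
    have hc3 : c ^ 3 = 1 := by
      have hn : ∀ n : ℕ, U i ^ n * U j = c ^ n * (U j * U i ^ n) := by
        intro n
        induction n with
        | zero => simp
        | succ n ih =>
          calc U i ^ (n + 1) * U j = U i * (U i ^ n * U j) := by rw [pow_succ', mul_assoc]
            _ = c ^ n * (U i * U j) * U i ^ n := by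
              rw [ih, ← mul_assoc, hc _ (pow_mem hcm n)]; simp only [mul_assoc]
            _ = _ := by rw [e, pow_succ, pow_succ']; simp only [mul_assoc]
      have h3 := hn 3
      rw [hc _ (hz3 i) (U j)] at h3
      exact mul_eq_right.1 h3.symm
    have : c = 1 := by rwa [pow_succ, pow_two, hc2, one_mul] at hc3
    rw [e, this, one_mul]
  choose k hk ek using fun i : Fin 3 => (show ∃ k ∈ σ.ker, T * U i * T⁻¹ = k * U (i + 1) from
    ⟨T * U i * T⁻¹ * (U (i + 1))⁻¹, by
      rw [MonoidHom.mem_ker, map_mul, map_mul, map_mul, map_inv, map_inv, hU, hU, hT, (three_facts i).2.1,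
        mul_inv_cancel_right, mul_inv_cancel], (inv_mul_cancel_right _ _).symm⟩)
  set D : Fin 3 → Γ := fun i => k i * U (i + 1) * (U i)⁻¹ with hD
  set A' := Subgroup.closure (Set.range U ∪ (σ.ker : Set Γ)) with hA'
  have hU' : ∀ i, U i ∈ A' := fun i => Subgroup.subset_closure (Or.inl ⟨i, rfl⟩)
  have hker' : ∀ x ∈ σ.ker, x ∈ A' := fun x hx => Subgroup.subset_closure (Or.inr hx)
  have hAc : ∀ x ∈ A', ∀ y ∈ A', x * y = y * x := by
    have hc' := Subgroup.isMulCommutative_closure (k := Set.range U ∪ (σ.ker : Set Γ)) (by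
      rintro a (⟨i, rfl⟩ | ha) b (⟨j, rfl⟩ | hb)
      · exact hcomm i j
      · exact hc b hb _
      · exact (hc a ha _).symm
      · exact hc b hb _)
    exact fun x hx y hy => congrArg Subtype.val (hc'.is_comm.comm ⟨x, hx⟩ ⟨y, hy⟩)
  have hDA : ∀ i, D i ∈ A' := fun i => mul_mem (mul_mem (hker' _ (hk i)) (hU' _)) (inv_mem (hU' _))
  have hT3 : T * T * T ∈ σ.ker := by rw [MonoidHom.mem_ker, map_mul, map_mul, hT]; exact spT_cube
  have hprod : k 0 * k 1 * k 2 = 1 := by
    have h0 : T * T * T * U 0 * (T * T * T)⁻¹ = U 0 := by rw [← hc _ hT3 (U 0), mul_inv_cancel_right]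
    have h1 : T * T * T * U 0 * (T * T * T)⁻¹ = k 0 * k 1 * k 2 * U 0 := by
      calc T * T * T * U 0 * (T * T * T)⁻¹ = T * (T * (T * U 0 * T⁻¹) * T⁻¹) * T⁻¹ := by group
        _ = T * (T * k 0 * T⁻¹ * (T * U 1 * T⁻¹)) * T⁻¹ := by rw [ek 0]; group; rfl
        _ = T * (k 0 * (k 1 * U 2)) * T⁻¹ := by rw [ek 1, hc _ (hk 0) T, mul_inv_cancel_right]; rfl
        _ = (T * (k 0 * k 1) * T⁻¹) * (T * U 2 * T⁻¹) := by group
        _ = k 0 * k 1 * k 2 * U 0 := by
          rw [ek 2, hc _ (mul_mem (hk 0) (hk 1)) T, mul_inv_cancel_right, ← mul_assoc]; rfl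
    exact mul_eq_right.1 (h1.symm.trans h0)
  have hD3 : ∀ i, D i ^ 3 = 1 := by
    intro i
    have h1 : (T * U i * T⁻¹) ^ 3 = U i ^ 3 := by rw [conj_pow, hc _ (hz3 i) T, mul_inv_cancel_right]
    rw [ek i, (show Commute (k i) (U (i + 1)) from (hc _ (hk i) _).symm).mul_pow] at h1
    have c1 : Commute (k i * U (i + 1)) (U i)⁻¹ :=
      hAc _ (mul_mem (hker' _ (hk i)) (hU' _)) _ (inv_mem (hU' _))
    rw [hD]
    show (k i * U (i + 1) * (U i)⁻¹) ^ 3 = 1
    rw [c1.mul_pow, (show Commute (k i) (U (i + 1)) from (hc _ (hk i) _).symm).mul_pow, h1, inv_pow, mul_inv_cancel]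
  letI : CommGroup A' :=
    { (inferInstance : Group A') with mul_comm := fun x y => Subtype.ext (hAc _ x.2 _ y.2) }
  have hD2 : D 2 = (D 0 * D 1)⁻¹ := by
    have e : (⟨D 0, hDA 0⟩ : A') * ⟨D 1, hDA 1⟩ * ⟨D 2, hDA 2⟩ = 1 := by
      have e' : ∀ i, (⟨D i, hDA i⟩ : A') = ⟨k i, hker' _ (hk i)⟩ * ⟨U (i + 1), hU' _⟩ * (⟨U i, hU' i⟩ : A')⁻¹ :=
        fun i => rfl
      rw [e', e', e', show (0 : Fin 3) + 1 = 1 from rfl, show (1 : Fin 3) + 1 = 2 from rfl,
        show (2 : Fin 3) + 1 = 0 from rfl]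
      exact comm_telescope _ _ _ _ _ _ (Subtype.ext hprod)
    exact (inv_eq_of_mul_eq_one_right (congrArg Subtype.val e)).symm
  set N := Subgroup.closure ({D 0, D 1} : Set Γ) with hN
  have hDN : ∀ i, D i ∈ N := by
    intro i
    have h0 : D 0 ∈ N := Subgroup.subset_closure (Or.inl rfl)
    have h1 : D 1 ∈ N := Subgroup.subset_closure (Or.inr rfl)
    fin_cases i
    · exact h0
    · exact h1
    · show D 2 ∈ N
      rw [hD2]; exact inv_mem (mul_mem h0 h1)
  have hβ : ∀ b ∈ A', T * b * T⁻¹ ∈ A' ∧ T * b * T⁻¹ * b⁻¹ ∈ N := by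
    intro b hb
    induction hb using Subgroup.closure_induction with
    | mem x hx =>
      rcases hx with ⟨i, rfl⟩ | hx
      · rw [ek i]
        exact ⟨mul_mem (hker' _ (hk i)) (hU' _), hDN i⟩
      · rw [hc x hx T, mul_inv_cancel_right, mul_inv_cancel]
        exact ⟨hker' x hx, one_mem _⟩
    | one => rw [mul_one, mul_inv_cancel]; exact ⟨one_mem _, by rw [inv_one, mul_one]; exact one_mem _⟩
    | mul x y hx hy ix iy =>
      rw [← conj_mul]
      refine ⟨mul_mem ix.1 iy.1, ?_⟩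
      have e : T * x * T⁻¹ * (T * y * T⁻¹) * (x * y)⁻¹ = (T * x * T⁻¹ * x⁻¹) * (T * y * T⁻¹ * y⁻¹) := by
        calc T * x * T⁻¹ * (T * y * T⁻¹) * (x * y)⁻¹ = (T * x * T⁻¹) * ((T * y * T⁻¹ * y⁻¹) * x⁻¹) := by group
          _ = _ := by rw [hAc _ (mul_mem iy.1 (inv_mem hy)) _ (inv_mem hx)]; simp only [mul_assoc]
      rw [e]; exact mul_mem ix.2 iy.2
    | inv x hx ix =>
      rw [show T * x⁻¹ * T⁻¹ = (T * x * T⁻¹)⁻¹ by group, inv_inv]
      refine ⟨inv_mem ix.1, ?_⟩
      rw [hAc _ (inv_mem ix.1) _ hx, show x * (T * x * T⁻¹)⁻¹ = (T * x * T⁻¹ * x⁻¹)⁻¹ by group]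
      exact inv_mem ix.2
  have hβn : ∀ (n : ℕ), ∀ b ∈ A', T ^ n * b * (T ^ n)⁻¹ ∈ A' ∧ T ^ n * b * (T ^ n)⁻¹ * b⁻¹ ∈ N := by
    intro n
    induction n with
    | zero => intro b hb; simp [hb, one_mem]
    | succ n ih =>
      intro b hb
      obtain ⟨h1, h2⟩ := ih b hb
      obtain ⟨h3, h4⟩ := hβ _ h1
      rw [show T ^ (n + 1) * b * (T ^ (n + 1))⁻¹ = T * (T ^ n * b * (T ^ n)⁻¹) * T⁻¹ by group]
      refine ⟨h3, ?_⟩
      rw [show T * (T ^ n * b * (T ^ n)⁻¹) * T⁻¹ * b⁻¹ = T * (T ^ n * b * (T ^ n)⁻¹) * T⁻¹ * (T ^ n * b * (T ^ n)⁻¹)⁻¹ *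
        (T ^ n * b * (T ^ n)⁻¹ * b⁻¹) by group]
      exact mul_mem h4 h2
  have hform : ∀ y ∈ (S : Subgroup Q).comap σ, ∃ a ∈ A', ∃ n : ℕ, y = a * T ^ n := by
    intro y hy
    obtain ⟨a, ha, n, e⟩ := hS _ hy
    refine ⟨y * (T ^ n)⁻¹, ?_, n, (inv_mul_cancel_right _ _).symm⟩
    have ha' : a ∈ (Subgroup.closure (Set.range U)).map σ := by
      rw [MonoidHom.map_closure, ← Set.range_comp, show σ ∘ U = uG from funext hU]; exact ha
    obtain ⟨a', ha', rfl⟩ := ha'
    have hd : a'⁻¹ * (y * (T ^ n)⁻¹) ∈ σ.ker := by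
      rw [MonoidHom.mem_ker, map_mul, map_mul, map_inv, map_inv, map_pow, e, hT, mul_inv_cancel_right, inv_mul_cancel]
    rw [← mul_inv_cancel_left a' (y * (T ^ n)⁻¹)]
    exact mul_mem (Subgroup.closure_mono Set.subset_union_left ha') (hker' _ hd)
  refine stem_false hσ S hz hzo fun x hxk hx => ?_
  have hle : ⁅(S : Subgroup Q).comap σ, (S : Subgroup Q).comap σ⁆ ≤ N := by
    rw [Subgroup.commutator_le]
    intro y hy w hw
    obtain ⟨a, ha, n, rfl⟩ := hform y hy
    obtain ⟨b, hb, m, rfl⟩ := hform w hw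
    obtain ⟨b1, b2⟩ := hβn n b hb
    obtain ⟨a1, a2⟩ := hβn m a ha
    have e : ⁅a * T ^ n, b * T ^ m⁆ =
        a * (T ^ n * b * (T ^ n)⁻¹) * (T ^ m * a * (T ^ m)⁻¹)⁻¹ * b⁻¹ := by
      rw [commutatorElement_def]; group
    rw [e]
    have e2 : a * (T ^ n * b * (T ^ n)⁻¹) * (T ^ m * a * (T ^ m)⁻¹)⁻¹ * b⁻¹ =
        (T ^ n * b * (T ^ n)⁻¹ * b⁻¹) * (T ^ m * a * (T ^ m)⁻¹ * a⁻¹)⁻¹ := by
      have := congrArg Subtype.val (comm_rearrange (⟨a, ha⟩ : A') ⟨_, b1⟩ ⟨_, a1⟩ ⟨b, hb⟩)
      exact this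
    rw [e2]
    exact mul_mem b2 (inv_mem a2)
  have hx' := hle hx
  have hpow : ∀ y ∈ N, ∃ a < 3, ∃ b < 3, y = D 0 ^ a * D 1 ^ b := by
    intro y hy
    suffices ∃ a b : ℕ, y = D 0 ^ a * D 1 ^ b by
      obtain ⟨a, b, rfl⟩ := this
      exact ⟨a % 3, Nat.mod_lt _ (by norm_num), b % 3, Nat.mod_lt _ (by norm_num), by
        rw [← pow_eq_pow_mod a (hD3 0), ← pow_eq_pow_mod b (hD3 1)]⟩
    have hcm : Commute (D 1) (D 0) := hAc _ (hDA 1) _ (hDA 0)
    induction hy using Subgroup.closure_induction with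
    | mem x hx =>
      rcases hx with rfl | rfl
      · exact ⟨1, 0, by rw [pow_one, pow_zero, mul_one]⟩
      · exact ⟨0, 1, by rw [pow_one, pow_zero, one_mul]⟩
    | one => exact ⟨0, 0, by rw [pow_zero, pow_zero, one_mul]⟩
    | mul x y _ _ ix iy =>
      obtain ⟨a, b, rfl⟩ := ix
      obtain ⟨c, d, rfl⟩ := iy
      exact ⟨a + c, b + d, by
        rw [mul_assoc, ← mul_assoc (D 1 ^ b), (hcm.pow_pow b c).eq, pow_add, pow_add]; simp only [mul_assoc]⟩
    | inv x _ ix =>
      obtain ⟨a, b, rfl⟩ := ix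
      refine ⟨2 * a, 2 * b, inv_eq_of_mul_eq_one_right ?_⟩
      rw [mul_assoc, ← mul_assoc (D 1 ^ b), (hcm.pow_pow b (2 * a)).eq, mul_assoc, ← pow_add, ← mul_assoc, ← pow_add,
        show a + 2 * a = 3 * a by ring, show b + 2 * b = 3 * b by ring, pow_mul, pow_mul, hD3, hD3, one_pow, one_pow,
        one_mul]
  obtain ⟨a, ha, b, hb, rfl⟩ := hpow x hx'
  rw [MonoidHom.mem_ker, map_mul, map_pow, map_pow] at hxk
  have hDσ : ∀ i, σ (D i) = uG (i + 1) * (uG i)⁻¹ := fun i => by
    rw [hD]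
    show σ (k i * U (i + 1) * (U i)⁻¹) = _
    rw [map_mul, map_mul, map_inv, hU, hU, MonoidHom.mem_ker.1 (hk i), one_mul]
  rw [hDσ, hDσ] at hxk
  obtain ⟨rfl, rfl⟩ := dW_indep a ha b hb hxk
  simp

theorem ker_prime {Γ : Type u} [Group Γ] [Finite Γ] (σ : Γ →* Q) (hσ : Cfsg.IsStemExtension σ) {z : Γ}
    (hz : z ∈ σ.ker) {q : ℕ} (hq : q.Prime) (hzo : orderOf z = q) : q = 2 := by
  haveI := Fact.mk hq
  by_contra h2
  by_cases h3 : q = 3
  · subst h3; exact three_false hσ hz hzo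
  obtain ⟨S⟩ := Sylow.nonempty (p := q) (G := Q)
  refine stem_false_cyclic hσ S ?_ hz hzo
  by_cases hd : q ∣ 1451520
  · have h57 : q = 5 ∨ q = 7 := by
      rw [show (1451520 : ℕ) = 2 ^ 9 * 3 ^ 4 * 5 * 7 by norm_num] at hd
      have hp : ∀ {r : ℕ}, r.Prime → q ∣ r → q = r := fun hr h => (Nat.prime_dvd_prime_iff_eq hq hr).1 h
      rcases (Nat.Prime.dvd_mul hq).1 hd with h | h
      rotate_left
      · exact Or.inr (hp (by norm_num) h)
      rcases (Nat.Prime.dvd_mul hq).1 h with h | h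
      rotate_left
      · exact Or.inl (hp (by norm_num) h)
      rcases (Nat.Prime.dvd_mul hq).1 h with h | h
      · exact absurd (hp Nat.prime_two (hq.dvd_of_dvd_pow h)) h2
      · exact absurd (hp Nat.prime_three (hq.dvd_of_dvd_pow h)) h3
    refine isCyclic_of_prime_card (p := q) ?_
    rcases h57 with rfl | rfl <;>
      rw [J2.SchurTwoClass.sylow_card card_Q hq (k := 1) (by norm_num) (by norm_num) S, pow_one]
  · have h0 := J2.SchurTwoClass.sylow_card card_Q hq (k := 0) (by simp) (by rwa [pow_one]) S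
    rw [pow_zero] at h0
    haveI : Subsingleton (S : Subgroup Q) := (Nat.card_eq_one_iff_unique.1 h0).1
    infer_instance

theorem ker_two {Γ : Type u} [Group Γ] [Finite Γ] (σ : Γ →* Q) (hσ : Cfsg.IsStemExtension σ) :
    ∃ w : σ.ker, w * w = 1 ∧ ∀ x : σ.ker, x = 1 ∨ x = w := by
  obtain ⟨h0, h1, h2⟩ := four_ok
  refine J2.SchurTwoClass.ker_le_two σ hσ (cls_sq 1 (by norm_num))
    (conj_sound (ok_four 2) (ok_reps 1) (ok_four 0) h0) (conj_sound (ok_four 3) (ok_reps 1) (ok_four 1) h1)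
    ?_ no_kernel_two (fun z hz q hq hzo => ker_prime σ hσ hz hq hzo)
  rw [← tw_append]
  exact conj_sound (ok_four 4) (ok_reps 1) ((ok_four 0).append (ok_four 1)) h2

end Cfsg.Agent.FGS2.SpSix
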