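import Cfsg.Agent.FGS2.SpSix.Multiplier
import Cfsg.Prelude.Def_Classical

/-! The multiplier of the projective symplectic group of dimension six over a field with two elements. -/

set_option autoImplicit false

namespace Cfsg.Agent.FGS2.SpSix

open Matrix

universe u

section

variable {R : Type*} [CommRing R] {S : Type*} [CommRing S]

theorem map_J (f : R ≃+* S) : (Matrix.J (Fin 3) R).map f = Matrix.J (Fin 3) S := by
  ext (i | i) (j | j) <;> simp [Matrix.J, Matrix.one_apply, apply_ite f]

theorem map_mem (f : R ≃+* S) {A : Matrix (Fin 3 ⊕ Fin 3) (Fin 3 ⊕ Fin 3) R}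
    (hA : A ∈ Matrix.symplecticGroup (Fin 3) R) :
    A.map f ∈ Matrix.symplecticGroup (Fin 3) S := by
  rw [SymplecticGroup.mem_iff] at hA ⊢
  have h := congrArg f.toRingHom.mapMatrix hA
  rw [map_mul, map_mul, RingHom.mapMatrix_apply, RingHom.mapMatrix_apply, RingHom.mapMatrix_apply,
    Matrix.transpose_map] at h
  change A.map f * (Matrix.J (Fin 3) R).map f * (A.map f)ᵀ = (Matrix.J (Fin 3) R).map f at h
  rwa [map_J] at h

/-- Change of the coefficient ring. -/
noncomputable def changeRing (f : R ≃+* S) :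
    Matrix.symplecticGroup (Fin 3) R ≃* Matrix.symplecticGroup (Fin 3) S where
  toFun A := ⟨A.1.map f, map_mem f A.2⟩
  invFun A := ⟨A.1.map f.symm, map_mem f.symm A.2⟩
  left_inv A := Subtype.ext (by ext; simp)
  right_inv A := Subtype.ext (by ext; simp)
  map_mul' A B := Subtype.ext (map_mul f.toRingHom.mapMatrix A.1 B.1)

end

theorem exists_surjective_of_two {G : Type*} [Group G] {w : G} (hw : w * w = 1) (hall : ∀ x : G, x = 1 ∨ x = w) :
    ∃ π : Multiplicative (ZMod 2) →* G, Function.Surjective π := by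
  have h1 : (Multiplicative.ofAdd (1 : ZMod 2)) ≠ 1 := by decide
  have h2 : (Multiplicative.ofAdd (1 : ZMod 2)) * Multiplicative.ofAdd 1 = 1 := by decide
  have h : ∀ a : Multiplicative (ZMod 2), a = 1 ∨ a = Multiplicative.ofAdd 1 := by decide
  let g : Multiplicative (ZMod 2) →* G :=
    { toFun := fun x => if x = 1 then 1 else w
      map_one' := if_pos rfl
      map_mul' := fun x y => by
        rcases h x with rfl | rfl <;> rcases h y with rfl | rfl <;> simp [hw, h1, h2] }
  refine ⟨g, fun x => ?_⟩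
  rcases hall x with rfl | rfl
  · exact ⟨1, g.map_one⟩
  · exact ⟨Multiplicative.ofAdd 1, by simp [g, h1]⟩

theorem psp_multiplier {F : Type u} [Field F] [Fintype F] (hF : Fintype.card F = 2) :
    Cfsg.HasCyclicSchurMultiplier (Cfsg.PSp 3 F) 2 := by
  classical
  haveI : Fact (Nat.Prime 2) := ⟨Nat.prime_two⟩
  let f : ZMod 2 ≃+* F := ZMod.ringEquivOfPrime F Nat.prime_two hF
  have hbot : Subgroup.center (Matrix.symplecticGroup (Fin 3) F) = ⊥ :=
    Subgroup.card_eq_one.1 (by rw [Forms.card_center_symplectic hF (by norm_num)]; norm_num)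
  let e : Q ≃* Cfsg.PSp 3 F :=
    (changeRing f).trans ((QuotientGroup.quotientMulEquivOfEq hbot).trans QuotientGroup.quotientBot).symm
  refine ⟨?_, fun Γ _ _ σ hσ => ?_⟩
  · obtain ⟨σ, hσ, hcard⟩ := cover_stem
    let d : ULift.{u} Cov ≃* Cov := MulEquiv.ulift
    let τ : ULift.{u} Cov →* Cfsg.PSp 3 F := e.toMonoidHom.comp (σ.comp d.toMonoidHom)
    have hk : τ.ker = σ.ker.comap d.toMonoidHom := by
      ext x
      show e (σ (d x)) = 1 ↔ σ (d x) = 1
      exact e.map_eq_one_iff
    refine ⟨ULift.{u} Cov, inferInstance, inferInstance, τ,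
      ⟨e.surjective.comp (hσ.1.comp d.surjective), ?_, ?_⟩, ?_⟩
    · intro x hx
      rw [hk] at hx
      exact Subgroup.mem_center_iff.2 fun y => d.injective (by
        rw [map_mul, map_mul]; exact Subgroup.mem_center_iff.1 (hσ.2.1 hx) (d y))
    · intro x hx
      rw [hk] at hx
      have := Subgroup.mem_map_of_mem d.symm.toMonoidHom (hσ.2.2 hx)
      rw [commutator_def, Subgroup.map_commutator,
        Subgroup.map_top_of_surjective _ (by exact d.symm.surjective), ← commutator_def] at this
      simpa using this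
    · have h2 : Nat.card τ.ker = 2 := by
        rw [hk]
        exact (Nat.card_congr (d.toEquiv.subtypeEquiv fun x => Iff.rfl)).trans hcard
      haveI : IsCyclic τ.ker := isCyclic_of_prime_card (p := 2) h2
      exact ⟨mulEquivOfCyclicCardEq (h2.trans (Nat.card_zmod 2).symm)⟩
  · let τ : Γ →* Q := e.symm.toMonoidHom.comp σ
    have hk : τ.ker = σ.ker := by
      ext x
      show e.symm (σ x) = 1 ↔ σ x = 1
      exact e.symm.map_eq_one_iff
    have hτ : Cfsg.IsStemExtension τ := by
      refine ⟨e.symm.surjective.comp hσ.1, ?_, ?_⟩ <;> rw [hk]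
      exacts [hσ.2.1, hσ.2.2]
    have key : ∃ w : σ.ker, w * w = 1 ∧ ∀ x : σ.ker, x = 1 ∨ x = w := by rw [← hk]; exact ker_two τ hτ
    obtain ⟨w, hw, hall⟩ := key
    exact exists_surjective_of_two hw hall

end Cfsg.Agent.FGS2.SpSix
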